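import Mathlib
import Cfsg.Agent.Lib.Classical.GraphAut.Final
import Cfsg.Agent.Lib.Classical.Herm.FieldCent
import Cfsg.Agent.Lib.Classical.Herm.PSLGraphField

/-!
# Involutory graph automorphisms of `PSU_n`: the form over the subfield attached to an involution
-/

set_option autoImplicit false
set_option linter.unusedSectionVars false
set_option linter.unusedSimpArgs false
set_option linter.unusedVariables false
set_option linter.style.haveILetI false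

open scoped Matrix MatrixGroups
open Cfsg
open Cfsg.Agent.Lib.Classical.Herm.Basic Cfsg.Agent.Lib.Classical.Herm.GU Cfsg.Agent.Lib.Classical.Herm.SU
open Cfsg.Agent.Lib.Classical.Herm.Psi Cfsg.Agent.Lib.Classical.Herm.AutMain
open Cfsg.Agent.Lib.Classical.Herm.AutStruct Cfsg.Agent.Lib.Classical.Herm.Descent
open Cfsg.Agent.Lib.Classical.Herm.GLDescent Cfsg.Agent.Lib.Classical.Herm.PSLGraphField
open Cfsg.Agent.Lib.Linalg.AutPSLStd Cfsg.Agent.Lib.Classical.GraphAut.Basic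
open Cfsg.Agent.Lib.Classical.GraphAut.Forms
open Module

namespace Cfsg.Agent.Lib.Classical.GraphU.Basic

variable {F : Type*} [Field F] [Fintype F] {q n : ℕ}
variable {F₀ : Type*} [Field F₀] [Fintype F₀]

/-! ### Scalars acting on `GL` -/

section Scl

variable {K : Type*} [Field K] [Fintype K]

instance sclTower : IsScalarTower Kˣ (GL (Fin n) K) (GL (Fin n) K) :=
  ⟨fun c x y => Units.ext (by
    change (((c : K) • (x : Matrix (Fin n) (Fin n) K)) * (y : Matrix (Fin n) (Fin n) K)) =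
      (c : K) • ((x : Matrix (Fin n) (Fin n) K) * (y : Matrix (Fin n) (Fin n) K))
    rw [smul_mul_assoc])⟩

instance sclComm : SMulCommClass Kˣ (GL (Fin n) K) (GL (Fin n) K) :=
  ⟨fun c x y => Units.ext (by
    change (c : K) • ((x : Matrix (Fin n) (Fin n) K) * (y : Matrix (Fin n) (Fin n) K)) =
      (x : Matrix (Fin n) (Fin n) K) * ((c : K) • (y : Matrix (Fin n) (Fin n) K))
    rw [mul_smul_comm])⟩

theorem coe_smulG (c : Kˣ) (x : GL (Fin n) K) :
    ((c • x : GL (Fin n) K) : Matrix (Fin n) (Fin n) K) = (c : K) • (x : Matrix (Fin n) (Fin n) K) := rfl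

theorem smul_inv' (c : Kˣ) (x : GL (Fin n) K) : (c • x)⁻¹ = c⁻¹ • x⁻¹ := Units.smul_inv c x

theorem tG_smul (c : Kˣ) (x : GL (Fin n) K) : tG (c • x) = c • tG x := by
  apply Units.ext
  rw [coe_smulG, coe_tG, coe_tG, coe_smulG, Matrix.transpose_smul]

theorem tG_tG (x : GL (Fin n) K) : tG (tG x) = x := by
  apply Units.ext
  rw [coe_tG, coe_tG, Matrix.transpose_transpose]

theorem tG_one : tG (1 : GL (Fin n) K) = 1 := by
  apply Units.ext
  rw [coe_tG]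
  simp

theorem mapG_mul (σ : K ≃+* K) (x y : GL (Fin n) K) : mapG σ (x * y) = mapG σ x * mapG σ y :=
  map_mul (Matrix.GeneralLinearGroup.map (σ : K →+* K)) x y

theorem mapG_inv (σ : K ≃+* K) (x : GL (Fin n) K) : mapG σ x⁻¹ = (mapG σ x)⁻¹ :=
  map_inv (Matrix.GeneralLinearGroup.map (σ : K →+* K)) x

theorem mapG_one (σ : K ≃+* K) : mapG σ (1 : GL (Fin n) K) = 1 :=
  map_one (Matrix.GeneralLinearGroup.map (σ : K →+* K))

/-- Units under a ring isomorphism. -/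
noncomputable def uM (σ : K ≃+* K) : Kˣ →* Kˣ := Units.map ((σ : K →+* K) : K →* K)

theorem coe_uM (σ : K ≃+* K) (c : Kˣ) : ((uM σ c : Kˣ) : K) = σ (c : K) := rfl

theorem mapG_smul (σ : K ≃+* K) (c : Kˣ) (x : GL (Fin n) K) : mapG σ (c • x) = uM σ c • mapG σ x := by
  apply Units.ext
  rw [coe_smulG, coe_mapG, coe_mapG, coe_smulG, coe_uM]
  ext i j
  simp

theorem mapG_tG (σ : K ≃+* K) (x : GL (Fin n) K) : mapG σ (tG x) = tG (mapG σ x) := by
  apply Units.ext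
  rw [coe_tG, coe_mapG, coe_mapG, coe_tG]
  rfl

theorem smul_left_eq (hn : 1 ≤ n) {c d : Kˣ} {x : GL (Fin n) K} (h : c • x = d • x) : c = d := by
  obtain ⟨i, j, hij⟩ : ∃ i j, (x : Matrix (Fin n) (Fin n) K) i j ≠ 0 := by
    by_contra hcon
    push Not at hcon
    haveI : Nonempty (Fin n) := ⟨⟨0, by omega⟩⟩
    have h0 : (x : Matrix (Fin n) (Fin n) K) = 0 := by
      ext i j
      exact hcon i j
    exact x.ne_zero h0
  have h1 := congrArg (fun w : GL (Fin n) K => (w : Matrix (Fin n) (Fin n) K) i j) h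
  simp only [coe_smulG, Matrix.smul_apply, smul_eq_mul] at h1
  exact Units.ext (mul_right_cancel₀ hij h1)

end Scl

section JG

variable (j : F₀ →+* F)

theorem JG_smul (a : F₀ˣ) (k : GL (Fin n) F₀) : JG n j (a • k) = Units.map (j : F₀ →* F) a • JG n j k := by
  apply Units.ext
  rw [coe_JG, coe_smulG, coe_smulG, coe_JG]
  ext i l
  simp

theorem JG_tG (k : GL (Fin n) F₀) : JG n j (tG k) = tG (JG n j k) := by
  apply Units.ext
  rw [coe_JG, coe_tG, coe_tG, coe_JG]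
  rfl

theorem JG_injective : Function.Injective (JG n j) := by
  intro a b h
  apply Units.ext
  ext i l
  exact j.injective (congrArg (fun w : GL (Fin n) F => (w : Matrix (Fin n) (Fin n) F) i l) h)

end JG

/-! ### The field involution -/

section Sig

variable (hF : Fintype.card F = q ^ 2)

local notation "σ₀" => sigE hF

include hF

theorem sig_sig (x : F) : σ₀ (σ₀ x) = x := sigma_sigma hF x

theorem mapG_mapG (x : GL (Fin n) F) : mapG σ₀ (mapG σ₀ x) = x := by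
  apply Units.ext
  rw [coe_mapG, coe_mapG]
  exact map_map_sigE hF _

theorem uM_uM (c : Fˣ) : uM σ₀ (uM σ₀ c) = c := by
  apply Units.ext
  rw [coe_uM, coe_uM, sig_sig]

theorem gu_rel (u : GU n F q) : tG u.1 * mapG σ₀ u.1 = 1 := by
  apply Units.ext
  rw [Units.val_mul, coe_tG, coe_mapG, Units.val_one]
  exact transpose_mul_of_GU hF u.1 u.2

theorem mem_of_rel (u : GL (Fin n) F) (h : tG u * mapG σ₀ u = 1) : u ∈ GU n F q := by
  apply mem_GU_of hF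
  have h1 := congrArg (fun w : GL (Fin n) F => (w : Matrix (Fin n) (Fin n) F)) h
  simpa only [Units.val_mul, coe_tG, coe_mapG, Units.val_one] using h1

theorem coe_guMap' (σ : F ≃+* F) (u : GU n F q) : (guMap hF σ u).1 = mapG σ u.1 := by
  apply Units.ext
  rw [coe_guMap, coe_mapG]

theorem deltaOf_eq_of_smul {u v : GU n F q} (t : Fˣ) (h : u.1 = t • v.1) :
    (deltaOf u : MulAut (PSU n F q)) = deltaOf v := by
  have h1 : ((u * v⁻¹ : GU n F q).1 : Matrix (Fin n) (Fin n) F) = Matrix.scalar (Fin n) (t : F) := by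
    have h2 : (u * v⁻¹ : GU n F q).1 = t • (1 : GL (Fin n) F) := by
      change u.1 * v.1⁻¹ = _
      rw [h, smul_mul_assoc, mul_inv_cancel]
    rw [h2, coe_smulG, Units.val_one]
    ext i l
    by_cases hil : i = l
    · subst hil
      simp
    · simp [hil, Matrix.one_apply]
  have h2 := deltaOf_scalar h1
  have h3 : (deltaOf u : MulAut (PSU n F q)) = deltaOf (u * v⁻¹ * v) := by
    rw [inv_mul_cancel_right]
  rw [h3, deltaOf_mul hF, h2, one_mul]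

theorem guMap_inv (σ : F ≃+* F) (u : GU n F q) : guMap hF σ u⁻¹ = (guMap hF σ u)⁻¹ := by
  apply Subtype.ext
  rw [coe_guMap']
  change mapG σ u.1⁻¹ = ((guMap hF σ u).1)⁻¹
  rw [coe_guMap', mapG_inv]

theorem deltaOf_inv (u : GU n F q) : (deltaOf u⁻¹ : MulAut (PSU n F q)) = (deltaOf u)⁻¹ :=
  map_inv (deltaHom hF) u

/-- Conjugating `δ_g φ_σ` by `δ_u`. -/
theorem conj_delta_phi (σ : F ≃+* F) (u g : GU n F q) :
    (deltaOf u * (deltaOf g * phiOf σ) * (deltaOf u)⁻¹ : MulAut (PSU n F q)) =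
      deltaOf (u * g * (guMap hF σ u)⁻¹) * phiOf σ := by
  have h1 : (phiOf σ * (deltaOf u)⁻¹ : MulAut (PSU n F q)) = deltaOf (guMap hF σ u)⁻¹ * phiOf σ := by
    rw [← deltaOf_inv hF u, phi_delta hF, guMap_inv]
  calc (deltaOf u * (deltaOf g * phiOf σ) * (deltaOf u)⁻¹ : MulAut (PSU n F q))
      = deltaOf u * deltaOf g * (phiOf σ * (deltaOf u)⁻¹) := by simp only [mul_assoc]
    _ = _ := by rw [h1, deltaOf_mul hF, deltaOf_mul hF]; simp only [mul_assoc]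

theorem exists_smul_of_delta (hn : 3 ≤ n) (h32 : ¬ (n = 3 ∧ q = 2)) {x g : GU n F q}
    (h : (deltaOf x : MulAut (PSU n F q)) = deltaOf g) : ∃ t : Fˣ, x.1 = t • g.1 := by
  have h1 : (deltaOf (x * g⁻¹) : MulAut (PSU n F q)) = 1 := by
    rw [deltaOf_mul hF, deltaOf_inv hF, h, mul_inv_cancel]
  obtain ⟨μ, hμ, hG⟩ := scalar_of_delta hF hn h32 h1
  have hμ0 : μ ≠ 0 := by
    rintro rfl
    rw [zero_pow (by omega)] at hμ
    exact zero_ne_one hμ
  refine ⟨Units.mk0 μ hμ0, ?_⟩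
  have h2 : (x * g⁻¹ : GU n F q).1 = Units.mk0 μ hμ0 • (1 : GL (Fin n) F) := by
    apply Units.ext
    rw [hG, coe_smulG, Units.val_one, Units.val_mk0]
    ext i l
    by_cases hil : i = l
    · subst hil
      simp
    · simp [hil, Matrix.one_apply]
  have h3 : x.1 = (x * g⁻¹ : GU n F q).1 * g.1 := by
    change x.1 = x.1 * g.1⁻¹ * g.1
    rw [inv_mul_cancel_right]
  rw [h3, h2, smul_mul_assoc, one_mul]

end Sig

/-! ### The representation of an automorphism by a form -/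

/-- The embedding of the fixed field. -/
structure JD (hF : Fintype.card F = q ^ 2) (j : F₀ →+* F) : Prop where
  fix : ∀ y, sigE hF (j y) = j y
  surj : ∀ y, sigE hF y = y → ∃ z, j z = y

/-- The automorphism `δ_g φ` is represented by the form `B`. -/
structure Rep (hF : Fintype.card F = q ^ 2) (j : F₀ →+* F) (g : GU n F q) (P : GL (Fin n) F) (c η : Fˣ)
    (B : GL (Fin n) F₀) : Prop where
  hg : g.1 * mapG (sigE hF) P = c • P
  hB : JG n j B = η • (tG P * mapG (sigE hF) P)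

section Rep

variable {hF : Fintype.card F = q ^ 2} {j : F₀ →+* F}

local notation "σ₀" => sigE hF

theorem JD.mapG_JG (hj : JD hF j) (k : GL (Fin n) F₀) : mapG σ₀ (JG n j k) = JG n j k := by
  apply Units.ext
  rw [coe_mapG, coe_JG]
  ext a b
  exact hj.fix _

theorem JD.mem_range (hj : JD hF j) (v : GL (Fin n) F) (hv : mapG σ₀ v = v) : ∃ k : GL (Fin n) F₀, JG n j k = v := by
  apply exists_JG
  intro a b
  apply hj.surj
  have h1 := congrArg (fun w : GL (Fin n) F => (w : Matrix (Fin n) (Fin n) F) a b) hv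
  exact h1

theorem JD.unit_of_fix (hj : JD hF j) (ρ : Fˣ) (h : uM σ₀ ρ = ρ) : ∃ a : F₀ˣ, Units.map (j : F₀ →* F) a = ρ := by
  obtain ⟨z, hz⟩ := hj.surj (ρ : F) (congrArg Units.val h)
  have hz0 : z ≠ 0 := by
    rintro rfl
    rw [map_zero] at hz
    exact ρ.ne_zero hz.symm
  exact ⟨Units.mk0 z hz0, Units.ext hz⟩

/-- The transporter is unitary. -/
theorem gu_of_sim {g g' : GU n F q} {P P' : GL (Fin n) F} {c c' η η' : Fˣ} {B B' : GL (Fin n) F₀}
    (hj : JD hF j) (R : Rep hF j g P c η B) (R' : Rep hF j g' P' c' η' B') (k : GL (Fin n) F₀) (a₀ : F₀ˣ) (b : Fˣ)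
    (hsim : B' = a₀ • (tG k * B * k)) (hN : b * uM σ₀ b * η' = η * Units.map (j : F₀ →* F) a₀) :
    b • (P * JG n j k * P'⁻¹) ∈ GU n F q := by
  apply mem_of_rel hF
  rw [tG_smul, mapG_smul, mapG_mul, mapG_mul, mapG_inv, hj.mapG_JG, tG_mul, tG_mul, tG_inv, ← JG_tG]
  have e3 : tG P * mapG σ₀ P = η⁻¹ • JG n j B := by
    rw [R.hB, smul_smul, inv_mul_cancel, one_smul]
  have e4 : tG k * B * k = a₀⁻¹ • B' := by
    rw [hsim, smul_smul, inv_mul_cancel, one_smul]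
  have e5 : JG n j (tG k) * (tG P * mapG σ₀ P) * JG n j k =
      (η⁻¹ * (Units.map (j : F₀ →* F) a₀)⁻¹ * η') • (tG P' * mapG σ₀ P') := by
    rw [e3, mul_smul_comm, smul_mul_assoc, ← map_mul, ← map_mul, e4, JG_smul, R'.hB, map_inv, smul_smul, smul_smul]
  have e6 : (b • ((tG P')⁻¹ * (JG n j (tG k) * tG P))) * (uM σ₀ b • (mapG σ₀ P * JG n j k * (mapG σ₀ P')⁻¹)) =
      (b * uM σ₀ b) • ((tG P')⁻¹ * (JG n j (tG k) * (tG P * mapG σ₀ P) * JG n j k) * (mapG σ₀ P')⁻¹) := by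
    rw [smul_mul_assoc, mul_smul_comm, smul_smul]
    congr 1
    group
  rw [e6, e5, mul_smul_comm, smul_mul_assoc, smul_smul]
  have e7 : (tG P')⁻¹ * (tG P' * mapG σ₀ P') * (mapG σ₀ P')⁻¹ = 1 := by group
  rw [e7]
  have e8 : b * uM σ₀ b * (η⁻¹ * (Units.map (j : F₀ →* F) a₀)⁻¹ * η') = 1 := by
    calc b * uM σ₀ b * (η⁻¹ * (Units.map (j : F₀ →* F) a₀)⁻¹ * η')
        = (b * uM σ₀ b * η') * (η⁻¹ * (Units.map (j : F₀ →* F) a₀)⁻¹) := by
          simp only [mul_comm, mul_left_comm, mul_assoc]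
      _ = _ := by
          rw [hN]
          simp only [mul_comm, mul_left_comm, mul_assoc, mul_inv_cancel, mul_one, mul_inv_cancel_left]
  rw [e8, one_smul]

theorem uM_mul_sc (σ : F ≃+* F) (a b : Fˣ) : uM σ (a * b) = uM σ a * uM σ b := map_mul _ _ _

/-- `δ_u` conjugates `δ_{g'} φ` to `δ_g φ` for the transporter `u`. -/
theorem conj_of_sim {g g' : GU n F q} {P P' : GL (Fin n) F} {c c' η η' : Fˣ} {B B' : GL (Fin n) F₀}
    (hj : JD hF j) (R : Rep hF j g P c η B) (R' : Rep hF j g' P' c' η' B') (k : GL (Fin n) F₀) (a₀ : F₀ˣ) (b : Fˣ)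
    (hsim : B' = a₀ • (tG k * B * k)) (hN : b * uM σ₀ b * η' = η * Units.map (j : F₀ →* F) a₀) :
    ∃ u : GU n F q, u.1 = b • (P * JG n j k * P'⁻¹) ∧
      (deltaOf u * (deltaOf g' * phiOf σ₀) * (deltaOf u)⁻¹ : MulAut (PSU n F q)) = deltaOf g * phiOf σ₀ := by
  refine ⟨⟨_, gu_of_sim hj R R' k a₀ b hsim hN⟩, rfl, ?_⟩
  rw [conj_delta_phi hF]
  congr 1
  obtain ⟨u, hu⟩ : ∃ u : GU n F q, u = ⟨_, gu_of_sim hj R R' k a₀ b hsim hN⟩ := ⟨_, rfl⟩
  rw [← hu]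
  have hu1 : u.1 = b • (P * JG n j k * P'⁻¹) := by rw [hu]
  apply deltaOf_eq_of_smul hF (b * (uM σ₀ b)⁻¹ * c' * c⁻¹)
  change u.1 * g'.1 * ((guMap hF σ₀ u).1)⁻¹ = _
  rw [coe_guMap', hu1, mapG_smul, mapG_mul, mapG_mul, mapG_inv, hj.mapG_JG, smul_inv']
  have hg : g.1 = c • (P * (mapG σ₀ P)⁻¹) := by
    rw [← smul_mul_assoc, ← R.hg, mul_inv_cancel_right]
  have hg' : g'.1 * mapG σ₀ P' = c' • P' := R'.hg
  have e1 : (b • (P * JG n j k * P'⁻¹)) * g'.1 * ((uM σ₀ b)⁻¹ • (mapG σ₀ P * JG n j k * (mapG σ₀ P')⁻¹)⁻¹) =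
      (b * (uM σ₀ b)⁻¹) • (P * JG n j k * P'⁻¹ * (g'.1 * mapG σ₀ P') * (JG n j k)⁻¹ * (mapG σ₀ P)⁻¹) := by
    rw [smul_mul_assoc, smul_mul_assoc, mul_smul_comm, smul_smul]
    congr 1
    group
  rw [e1, hg', hg, smul_smul]
  have e2 : P * JG n j k * P'⁻¹ * (c' • P') * (JG n j k)⁻¹ * (mapG σ₀ P)⁻¹ = c' • (P * (mapG σ₀ P)⁻¹) := by
    rw [mul_smul_comm, smul_mul_assoc, smul_mul_assoc]
    congr 1
    group
  rw [e2, smul_smul]
  congr 1
  rw [mul_assoc _ c⁻¹ c, inv_mul_cancel, mul_one]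

/-- The expression of `tG u * mapG u` for a transporter. -/
theorem gu_expr (hj : JD hF j) (P P' : GL (Fin n) F) (k : GL (Fin n) F₀) (b : Fˣ) :
    tG (b • (P * JG n j k * P'⁻¹)) * mapG σ₀ (b • (P * JG n j k * P'⁻¹)) =
      (b * uM σ₀ b) • ((tG P')⁻¹ * (JG n j (tG k) * (tG P * mapG σ₀ P) * JG n j k) * (mapG σ₀ P')⁻¹) := by
  rw [tG_smul, mapG_smul, mapG_mul, mapG_mul, mapG_inv, hj.mapG_JG, tG_mul, tG_mul, tG_inv, ← JG_tG]
  rw [smul_mul_assoc, mul_smul_comm, smul_smul]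
  congr 1
  group

theorem mapG_smul_eq_of_matrix {u : GL (Fin n) F} {ξ : Fˣ} (h : mapG σ₀ u = ξ • u) :
    (u : Matrix (Fin n) (Fin n) F).map σ₀ = Matrix.scalar (Fin n) (ξ : F) * (u : Matrix (Fin n) (Fin n) F) := by
  rw [← coe_mapG, h, coe_smulG]
  ext a l
  rw [Cfsg.Agent.Lib.Classical.Herm.FieldCent.scalar_mul_apply]
  rfl

theorem sG_mul_eq_smul (a : Fˣ) (u : GL (Fin n) F) : sG n a * u = a • u := by
  apply Units.ext
  rw [coe_sG_mul_apply, coe_smulG]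

/-- A unitary element conjugating `δ_{g'} φ` to `δ_g φ` is a transporter. -/
theorem sim_of_conj {g g' : GU n F q} {P P' : GL (Fin n) F} {c c' η η' : Fˣ} {B B' : GL (Fin n) F₀}
    (hn : 3 ≤ n) (h32 : ¬ (n = 3 ∧ q = 2))
    (hj : JD hF j) (R : Rep hF j g P c η B) (R' : Rep hF j g' P' c' η' B') (u : GU n F q)
    (h : (deltaOf u * (deltaOf g' * phiOf σ₀) * (deltaOf u)⁻¹ : MulAut (PSU n F q)) = deltaOf g * phiOf σ₀) :
    ∃ (k : GL (Fin n) F₀) (a₀ : F₀ˣ) (b : Fˣ), u.1 = b • (P * JG n j k * P'⁻¹) ∧ B' = a₀ • (tG k * B * k) ∧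
      b * uM σ₀ b * η' = η * Units.map (j : F₀ →* F) a₀ := by
  have hn1 : 1 ≤ n := by omega
  rw [conj_delta_phi hF] at h
  have h1 := mul_right_cancel h
  obtain ⟨t, ht⟩ := exists_smul_of_delta hF hn h32 h1
  have ht' : u.1 * g'.1 * (mapG σ₀ u.1)⁻¹ = t • g.1 := by
    rw [← ht, ← coe_guMap']
    rfl
  have hmu : mapG σ₀ u.1 = t⁻¹ • (g.1⁻¹ * u.1 * g'.1) := by
    have h2 : u.1 * g'.1 = (t • g.1) * mapG σ₀ u.1 := by
      rw [← ht', inv_mul_cancel_right]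
    have h3 : g.1⁻¹ * u.1 * g'.1 = t • mapG σ₀ u.1 := by
      rw [mul_assoc, h2, smul_mul_assoc, mul_smul_comm, inv_mul_cancel_left]
    rw [h3, smul_smul, inv_mul_cancel, one_smul]
  obtain ⟨T0, hT0⟩ : ∃ T0, T0 = P⁻¹ * u.1 * P' := ⟨_, rfl⟩
  have hg1 : (mapG σ₀ P)⁻¹ * g.1⁻¹ = c⁻¹ • P⁻¹ := by
    rw [← mul_inv_rev, R.hg, smul_inv']
  have hmT : mapG σ₀ T0 = (t⁻¹ * c⁻¹ * c') • T0 := by
    rw [hT0, mapG_mul, mapG_mul, mapG_inv, hmu, mul_smul_comm, smul_mul_assoc]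
    have e1 : (mapG σ₀ P)⁻¹ * (g.1⁻¹ * u.1 * g'.1) * mapG σ₀ P' = ((mapG σ₀ P)⁻¹ * g.1⁻¹) * u.1 * (g'.1 * mapG σ₀ P') := by
      group
    rw [e1, hg1, R'.hg]
    simp only [smul_mul_assoc, mul_smul_comm, smul_smul]
    congr 1
    simp only [mul_comm, mul_left_comm, mul_assoc]
  obtain ⟨a, ha, hfix⟩ := exists_fixed_of_map_eq_GL hn1 σ₀ T0 (mapG_smul_eq_of_matrix hmT)
  rw [sG_mul_eq_smul] at hfix
  obtain ⟨k, hk⟩ := hj.mem_range _ hfix
  obtain ⟨a', ha'⟩ : ∃ a' : Fˣ, a' = Units.mk0 a ha := ⟨_, rfl⟩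
  rw [← ha'] at hk hfix
  have hu : u.1 = a'⁻¹ • (P * JG n j k * P'⁻¹) := by
    rw [hk, mul_smul_comm, smul_mul_assoc, smul_smul, inv_mul_cancel, one_smul, hT0]
    group
  refine ⟨k, ?_⟩
  obtain ⟨b, hb⟩ : ∃ b, b = a'⁻¹ := ⟨_, rfl⟩
  rw [← hb] at hu
  -- the unitary relation
  have hrel := gu_rel hF u
  rw [hu, gu_expr hj] at hrel
  have e3 : tG P * mapG σ₀ P = η⁻¹ • JG n j B := by
    rw [R.hB, smul_smul, inv_mul_cancel, one_smul]
  have e4 : tG P' * mapG σ₀ P' = η'⁻¹ • JG n j B' := by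
    rw [R'.hB, smul_smul, inv_mul_cancel, one_smul]
  obtain ⟨Y, hY⟩ : ∃ Y, Y = JG n j (tG k * B * k) := ⟨_, rfl⟩
  have e5 : JG n j (tG k) * (tG P * mapG σ₀ P) * JG n j k = η⁻¹ • Y := by
    rw [e3, mul_smul_comm, smul_mul_assoc, ← map_mul, ← map_mul, ← hY]
  rw [e5, mul_smul_comm, smul_mul_assoc, smul_smul] at hrel
  -- `Y = ρ⁻¹ • (tG P' * mapG P')`
  obtain ⟨ρ₁, hρ₁⟩ : ∃ ρ₁, ρ₁ = b * uM σ₀ b * η⁻¹ := ⟨_, rfl⟩
  rw [← hρ₁] at hrel
  have e7 : (tG P')⁻¹ * Y * (mapG σ₀ P')⁻¹ = ρ₁⁻¹ • (1 : GL (Fin n) F) := by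
    rw [← hrel, smul_smul, inv_mul_cancel, one_smul]
  have e8 : Y = tG P' * ((tG P')⁻¹ * Y * (mapG σ₀ P')⁻¹) * mapG σ₀ P' := by group
  have e9 : Y = (ρ₁⁻¹ * η'⁻¹) • JG n j B' := by
    rw [e8, e7, mul_smul_comm, smul_mul_assoc, mul_one, e4, smul_smul]
  obtain ⟨ρ, hρ⟩ : ∃ ρ, ρ = ρ₁ * η' := ⟨_, rfl⟩
  have e10 : JG n j B' = ρ • Y := by
    rw [e9, smul_smul, hρ]
    have : ρ₁ * η' * (ρ₁⁻¹ * η'⁻¹) = 1 := by
      rw [mul_mul_mul_comm, mul_inv_cancel, mul_inv_cancel, one_mul]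
    rw [this, one_smul]
  have hfixY : mapG σ₀ Y = Y := by rw [hY, hj.mapG_JG]
  have e11 : uM σ₀ ρ = ρ := by
    have h2 := congrArg (mapG σ₀) e10
    rw [hj.mapG_JG, mapG_smul, hfixY, e10] at h2
    exact (smul_left_eq hn1 h2).symm
  obtain ⟨a₀, ha₀⟩ := hj.unit_of_fix ρ e11
  refine ⟨a₀, b, hu, ?_, ?_⟩
  · apply JG_injective j
    rw [JG_smul, ha₀, e10, hY]
  · rw [ha₀, hρ, hρ₁]
    apply Units.ext
    simp only [Units.val_mul, Units.val_inv_eq_inv_val]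
    field_simp

theorem ord_sig : orderOf σ₀ = 2 := orderOf_eq_prime (sigE_sq hF) (sigE_ne_one hF)

theorem sig_mul_sig : σ₀ * σ₀ = 1 := by
  rw [← pow_two]
  exact sigE_sq hF

/-- The norm is onto the fixed units. -/
theorem exists_norm {μ : Fˣ} (hμ : uM σ₀ μ = μ) : ∃ a : Fˣ, a * uM σ₀ a = μ := by
  obtain ⟨a, ha, hN⟩ := exists_norm_units σ₀ μ.ne_zero (congrArg Units.val hμ)
  rw [ord_sig, Nk_two] at hN
  exact ⟨Units.mk0 a ha, Units.ext hN⟩

/-- Hilbert 90 for units. -/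
theorem exists_hilb {μ : Fˣ} (hμ : μ * uM σ₀ μ = 1) : ∃ a : Fˣ, μ * uM σ₀ a = a := by
  obtain ⟨a, ha, hN⟩ := exists_hilbert_units σ₀ (c := (μ : F)) (by
    rw [ord_sig, Nk_two]
    exact congrArg Units.val hμ)
  exact ⟨Units.mk0 a ha, Units.ext hN⟩

theorem Tg_fix {h : GL (Fin n) F} (hh : h * mapG σ₀ h = 1) (x : Fin n → F) :
    (Tg h σ₀)^[orderOf σ₀] x = x := by
  rw [ord_sig]
  change Tg h σ₀ (Tg h σ₀ x) = x
  rw [Tg_comp, hh, sig_mul_sig, Tg, Units.val_one, Matrix.one_mulVec]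
  rfl

theorem fB_type {B : GL (Fin n) F₀} {μ₀ : F₀ˣ} (hB : tG B = μ₀ • B) (x y : Fin n → F₀) :
    fB (B : Matrix (Fin n) (Fin n) F₀) y x = μ₀ * fB (B : Matrix (Fin n) (Fin n) F₀) x y := by
  rw [← fB_transpose, ← coe_tG, hB, coe_smulG, fB_smul_mat]

/-- The type of the form. -/
theorem type_of {B : GL (Fin n) F₀} {μ₀ : F₀ˣ} (hμ : μ₀ = 1 ∨ μ₀ = -1) (hB : tG B = μ₀ • B) :
    IsAl B ∨ (IsSy B ∧ ¬ IsAl B) := by
  by_cases hA : IsAl B
  · exact Or.inl hA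
  · refine Or.inr ⟨?_, hA⟩
    rcases hμ with rfl | rfl
    · intro x y
      have := fB_type hB y x
      rw [this, Units.val_one, one_mul]
    · have h2 : (2 : F₀) = 0 := by
        simp only [IsAl, not_forall] at hA
        obtain ⟨x, hx⟩ := hA
        have h3 := fB_type hB x x
        rw [Units.val_neg, Units.val_one] at h3
        have h4 : 2 * fB (B : Matrix (Fin n) (Fin n) F₀) x x = 0 := by linear_combination h3
        exact (mul_eq_zero.mp h4).resolve_right hx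
      intro x y
      have := fB_type hB y x
      rw [this, Units.val_neg, Units.val_one]
      linear_combination (- fB (B : Matrix (Fin n) (Fin n) F₀) y x) * h2

/-- From an involution to a form. -/
theorem exists_rep_of_g (hn : 3 ≤ n) (h32 : ¬ (n = 3 ∧ q = 2)) (hj : JD hF j) (g : GU n F q)
    (h : (deltaOf (g * guMap hF σ₀ g) : MulAut (PSU n F q)) = 1) :
    ∃ (P : GL (Fin n) F) (c η : Fˣ) (B : GL (Fin n) F₀), Rep hF j g P c η B ∧ (IsAl B ∨ (IsSy B ∧ ¬ IsAl B)) := by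
  classical
  have hn1 : 1 ≤ n := by omega
  obtain ⟨μ, hμ⟩ := exists_smul_of_delta hF hn h32 (x := g * guMap hF σ₀ g) (g := 1) (by rw [h, deltaOf_one])
  have hμ' : g.1 * mapG σ₀ g.1 = μ • (1 : GL (Fin n) F) := by
    rw [← coe_guMap' hF]
    exact hμ
  have hrel := gu_rel hF g
  have hmg : mapG σ₀ g.1 = (tG g.1)⁻¹ := eq_inv_of_mul_eq_one_right hrel
  have hg1 : g.1 = μ • tG g.1 := by
    have h2 : g.1 * (tG g.1)⁻¹ = μ • (1 : GL (Fin n) F) := by rw [← hmg, hμ']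
    calc g.1 = (g.1 * (tG g.1)⁻¹) * tG g.1 := (inv_mul_cancel_right _ _).symm
      _ = μ • tG g.1 := by rw [h2, smul_mul_assoc, one_mul]
  have htg : tG g.1 = μ⁻¹ • g.1 := by
    conv_rhs => rw [hg1]
    rw [smul_smul, inv_mul_cancel, one_smul]
  have htg2 : tG g.1 = μ • g.1 := by
    have h2 := congrArg tG hg1
    rw [tG_smul, tG_tG] at h2
    exact h2
  have hμμ : μ * μ = 1 := by
    have h2 : μ⁻¹ • g.1 = μ • g.1 := by rw [← htg, htg2]
    have h3 := smul_left_eq hn1 h2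
    calc μ * μ = μ * μ⁻¹ := by rw [h3]
      _ = 1 := mul_inv_cancel μ
  have hμ1 : μ = 1 ∨ μ = -1 := by
    have h2 : (μ : F) * μ = 1 := by
      have := congrArg Units.val hμμ
      simpa using this
    rcases mul_self_eq_one_iff.mp h2 with h3 | h3
    · exact Or.inl (Units.ext h3)
    · exact Or.inr (Units.ext (by simpa using h3))
  have hμσ : uM σ₀ μ = μ := by
    rcases hμ1 with rfl | rfl
    · exact map_one _
    · apply Units.ext
      rw [coe_uM]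
      simp
  obtain ⟨a, ha⟩ := exists_norm (hF := hF) hμσ
  have hμinv : μ⁻¹ = μ := by
    apply inv_eq_of_mul_eq_one_right hμμ
  have hainv : a⁻¹ * uM σ₀ a⁻¹ = μ⁻¹ := by rw [map_inv, ← mul_inv, ha]
  obtain ⟨P, hP⟩ := exists_gl_of_iterate σ₀ (a⁻¹ • g.1) (Tg_fix (hF := hF) (by
    rw [mapG_smul, smul_mul_assoc, mul_smul_comm, hμ', smul_smul, smul_smul, hainv, inv_mul_cancel, one_smul]))
  have hP' : g.1 * mapG σ₀ P = a • P := by
    rw [smul_mul_assoc] at hP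
    calc g.1 * mapG σ₀ P = a • (a⁻¹ • (g.1 * mapG σ₀ P)) := by rw [smul_smul, mul_inv_cancel, one_smul]
      _ = a • P := by rw [hP]
  obtain ⟨D, hD⟩ : ∃ D, D = tG P * mapG σ₀ P := ⟨_, rfl⟩
  have hD1 : tG D = tG (mapG σ₀ P) * P := by rw [hD, tG_mul, tG_tG]
  have hD2 : mapG σ₀ D = tG (mapG σ₀ P) * P := by rw [hD, mapG_mul, mapG_mapG hF, mapG_tG]
  have hmP : mapG σ₀ P = a • (g.1⁻¹ * P) := by
    rw [← mul_smul_comm, ← hP', inv_mul_cancel_left]
  have hD3 : D = a • (tG P * (g.1⁻¹ * P)) := by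
    rw [hD, hmP, mul_smul_comm]
  have hD4 : tG D = μ • D := by
    conv_lhs => rw [hD3]
    conv_rhs => rw [hD3]
    rw [tG_smul, tG_mul, tG_mul, tG_tG, tG_inv, htg2, smul_inv', hμinv, mul_smul_comm, smul_mul_assoc, smul_smul, smul_smul, mul_comm a μ]
    congr 1
    group
  obtain ⟨η, hη⟩ := exists_hilb (hF := hF) (μ := μ) (by rw [hμσ, hμμ])
  have hfixX : mapG σ₀ (η • D) = η • D := by
    rw [mapG_smul, hD2, ← hD1, hD4, smul_smul]
    congr 1
    rw [mul_comm, hη]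
  obtain ⟨B, hB⟩ := hj.mem_range _ hfixX
  refine ⟨P, a, η, B, ⟨hP', by rw [hB, hD]⟩, ?_⟩
  obtain ⟨μ₀, hμ₀⟩ := hj.unit_of_fix μ hμσ
  have htB : tG B = μ₀ • B := by
    apply JG_injective j
    rw [JG_tG, hB, tG_smul, hD4, JG_smul, hB, hμ₀, smul_smul, smul_smul, mul_comm]
  refine type_of ?_ htB
  rcases hμ1 with h2 | h2
  · left
    apply Units.ext
    apply j.injective
    have := congrArg Units.val hμ₀
    rw [h2] at this
    simpa using this
  · right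
    apply Units.ext
    apply j.injective
    have := congrArg Units.val hμ₀
    rw [h2] at this
    simpa using this

/-- From a form to an involution. -/
theorem exists_rep_of_B (hj : JD hF j) (B : GL (Fin n) F₀) (μ₀ : F₀ˣ) (hμ₀ : μ₀ * μ₀ = 1) (htB : tG B = μ₀ • B) :
    ∃ (g : GU n F q) (P : GL (Fin n) F) (c η : Fˣ), Rep hF j g P c η B := by
  obtain ⟨μ, hμ⟩ : ∃ μ, μ = Units.map (j : F₀ →* F) μ₀ := ⟨_, rfl⟩
  have hμμ : μ * μ = 1 := by
    rw [hμ, ← map_mul, hμ₀, map_one]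
  have hμσ : uM σ₀ μ = μ := by
    apply Units.ext
    rw [coe_uM, hμ]
    exact hj.fix _
  have hμinv : μ⁻¹ = μ := inv_eq_of_mul_eq_one_right hμμ
  obtain ⟨η, hη⟩ := exists_hilb (hF := hF) (μ := μ) (by rw [hμσ, hμμ])
  have hJt : tG (JG n j B) = μ • JG n j B := by
    rw [← JG_tG, htB, JG_smul, hμ]
  obtain ⟨D, hD⟩ : ∃ D, D = η⁻¹ • JG n j B := ⟨_, rfl⟩
  have hD1 : tG D = μ • D := by
    rw [hD, tG_smul, hJt, smul_smul, smul_smul, mul_comm]
  have huη : (uM σ₀ η)⁻¹ = μ * η⁻¹ := by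
    have h1 : uM σ₀ η = μ⁻¹ * η := by
      calc uM σ₀ η = μ⁻¹ * (μ * uM σ₀ η) := by rw [inv_mul_cancel_left]
        _ = _ := by rw [hη]
    rw [h1, mul_inv, inv_inv]
  have hD2 : tG (mapG σ₀ D) = D := by
    rw [hD, mapG_smul, hj.mapG_JG, map_inv, tG_smul, hJt, smul_smul, huη]
    congr 1
    rw [mul_right_comm, hμμ, one_mul]
  obtain ⟨h, hh⟩ := exists_herm_factor hF D (by
    rw [← coe_mapG, ← coe_tG, hD2])
  obtain ⟨P, hP⟩ : ∃ P, P = tG h := ⟨_, rfl⟩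
  have hPD : tG P * mapG σ₀ P = D := by
    apply Units.ext
    rw [hP, tG_tG, mapG_tG, Units.val_mul, coe_tG, coe_mapG]
    exact hh
  obtain ⟨a, ha⟩ := exists_norm (hF := hF) hμσ
  have hgu : a • (P * (mapG σ₀ P)⁻¹) ∈ GU n F q := by
    apply mem_of_rel hF
    rw [tG_smul, mapG_smul, mapG_mul, mapG_inv, mapG_mapG hF, tG_mul, tG_inv, smul_mul_assoc, mul_smul_comm, smul_smul, ha]
    have h1 : tG D = tG (mapG σ₀ P) * P := by rw [← hPD, tG_mul, tG_tG]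
    have h2 : (tG (mapG σ₀ P))⁻¹ * tG P * (mapG σ₀ P * P⁻¹) = μ⁻¹ • (1 : GL (Fin n) F) := by
      have h3 : tG (mapG σ₀ P) * P = μ • D := by rw [← h1, hD1]
      have h4 : D = μ⁻¹ • (tG (mapG σ₀ P) * P) := by
        rw [h3, smul_smul, inv_mul_cancel, one_smul]
      have h5 : (tG (mapG σ₀ P))⁻¹ * tG P * (mapG σ₀ P * P⁻¹) = (tG (mapG σ₀ P))⁻¹ * D * P⁻¹ := by
        rw [← hPD]
        group
      rw [h5, h4, mul_smul_comm, smul_mul_assoc]
      congr 1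
      group
    rw [h2, smul_smul, mul_inv_cancel, one_smul]
  refine ⟨⟨_, hgu⟩, P, a, η, ?_, ?_⟩
  · change (a • (P * (mapG σ₀ P)⁻¹)) * mapG σ₀ P = a • P
    rw [smul_mul_assoc, inv_mul_cancel_right]
  · rw [hPD, hD, smul_smul, mul_inv_cancel, one_smul]

/-- A represented automorphism is an involution. -/
theorem orderOf_of_rep (hn : 3 ≤ n) {g : GU n F q} {P : GL (Fin n) F} {c η : Fˣ} {B : GL (Fin n) F₀}
    (R : Rep hF j g P c η B) : orderOf (deltaOf g * phiOf σ₀ : MulAut (PSU n F q)) = 2 := by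
  apply orderOf_eq_prime
  · rw [pow_delta_phi hF, sigE_sq hF, phiOf_one, mul_one]
    have hg : g.1 = c • (P * (mapG σ₀ P)⁻¹) := by
      rw [← smul_mul_assoc, ← R.hg, mul_inv_cancel_right]
    have h1 : normG hF g σ₀ 2 = g * guMap hF σ₀ g := by
      simp only [normG]
      have h2 : guMap hF σ₀ (1 : GU n F q) = 1 := by
        apply Subtype.ext
        rw [coe_guMap']
        exact mapG_one _
      rw [h2, mul_one]
    rw [h1, ← deltaOf_one]
    apply deltaOf_eq_of_smul hF (c * uM σ₀ c)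
    change g.1 * (guMap hF σ₀ g).1 = _
    rw [coe_guMap']
    conv_lhs => rw [hg]
    rw [mapG_smul, mapG_mul, mapG_inv, mapG_mapG hF, smul_mul_assoc, mul_smul_comm, smul_smul]
    congr 1
    change _ = (1 : GL (Fin n) F)
    group
  · intro h
    exact sigE_ne_one hF (sigma_eq_one hF hn h)

theorem isGraph_of (hn : 3 ≤ n) (g : GU n F q) : IsGraphAutClassPSU (deltaOf g * phiOf σ₀ : MulAut (PSU n F q)) := by
  refine ⟨hn, deltaOf g, phiOf σ₀, σ₀, ?_, (isInnerDiag_iff _).mpr ⟨g, rfl⟩, isFieldAut_psuOf σ₀, rfl⟩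
  rw [ord_sig]
  exact ⟨1, rfl⟩

end Rep

end Cfsg.Agent.Lib.Classical.GraphU.Basic
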