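import Mathlib
import Cfsg.Agent.Lib.Classical.GraphU.Basic

/-!
# Involutory graph automorphisms of `PSU_n`: reduction to forms, centralisers and conjugacy
-/

set_option autoImplicit false
set_option linter.unusedSectionVars false
set_option linter.unusedSimpArgs false
set_option linter.unusedVariables false
set_option linter.style.haveILetI false

open scoped Matrix MatrixGroups
open Cfsg
open Cfsg.Agent.Lib.Classical.Herm.Basic Cfsg.Agent.Lib.Classical.Herm.GU Cfsg.Agent.Lib.Classical.Herm.SU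
open Cfsg.Agent.Lib.Classical.Herm.Psi Cfsg.Agent.Lib.Classical.Herm.AutMain
open Cfsg.Agent.Lib.Classical.Herm.AutStruct Cfsg.Agent.Lib.Classical.Herm.Descent
open Cfsg.Agent.Lib.Classical.Herm.GLDescent Cfsg.Agent.Lib.Classical.Herm.PSLGraphField
open Cfsg.Agent.Lib.Linalg.AutPSLStd Cfsg.Agent.Lib.Classical.GraphAut.Basic
open Cfsg.Agent.Lib.Classical.GraphAut.Forms Cfsg.Agent.Lib.Classical.GraphAut.Models
open Cfsg.Agent.Lib.Classical.GraphU.Basic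
open Module

namespace Cfsg.Agent.Lib.Classical.GraphU.Cent

variable {F : Type*} [Field F] [Fintype F] {q n : ℕ}
variable {F₀ : Type*} [Field F₀] [Fintype F₀]

theorem normG_two (hF : Fintype.card F = q ^ 2) (g : GU n F q) (σ : F ≃+* F) :
    normG hF g σ 2 = g * guMap hF σ g := by
  simp only [normG]
  have h2 : guMap hF σ (1 : GU n F q) = 1 := by
    apply Subtype.ext
    rw [coe_guMap']
    exact mapG_one _
  rw [h2, mul_one]

/-- The prime power. -/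
theorem exists_prime_pow (hF : Fintype.card F = q ^ 2) : ∃ p f : ℕ, p.Prime ∧ q = p ^ f ∧ 1 ≤ f := by
  obtain ⟨p, hp⟩ := CharP.exists F
  obtain ⟨k, hpp, hk⟩ := FiniteField.card F p
  have h1 : q ∣ p ^ (k : ℕ) := by
    rw [← hk, hF]
    exact dvd_pow_self q (by norm_num)
  obtain ⟨i, hi, rfl⟩ := (Nat.dvd_prime_pow hpp).mp h1
  refine ⟨p, i, hpp, rfl, ?_⟩
  by_contra h0
  have hi0 : i = 0 := by omega
  subst hi0
  have h2 : Fintype.card F = 1 := by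
    rw [hF]
    simp
  have h3 : 1 < Fintype.card F := Fintype.one_lt_card
  omega

/-- The fixed field embedding. -/
theorem exists_JD (hF : Fintype.card F = q ^ 2) (hF₀ : Fintype.card F₀ = q) : ∃ j : F₀ →+* F, JD hF j := by
  classical
  letI : Fintype (fixF (sigE hF)) := Fintype.ofFinite _
  have h1 := card_eq_pow_fix (sigE hF)
  rw [ord_sig (hF := hF), Nat.card_eq_fintype_card, hF] at h1
  have hcard : Fintype.card F₀ = Fintype.card (fixF (sigE hF)) := by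
    rw [hF₀, ← Nat.card_eq_fintype_card]
    exact Nat.pow_left_injective (n := 2) (by norm_num) h1
  let j₀ : F₀ ≃+* fixF (sigE hF) := FiniteField.ringEquivOfCardEq hcard
  refine ⟨(fixF (sigE hF)).subtype.comp (j₀ : F₀ →+* fixF (sigE hF)), fun y => (j₀ y).2, fun y hy => ⟨j₀.symm ⟨y, hy⟩, ?_⟩⟩
  change ((j₀ (j₀.symm ⟨y, hy⟩) : fixF (sigE hF)) : F) = y
  rw [RingEquiv.apply_symm_apply]

/-- Involutory graph automorphisms. -/
theorem graph_data (hF : Fintype.card F = q ^ 2) (h32 : ¬ (n = 3 ∧ q = 2)) {γ : MulAut (PSU n F q)}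
    (hγ : IsGraphAutClassPSU γ) (hγ2 : orderOf γ = 2) :
    3 ≤ n ∧ ∃ g : GU n F q, γ = deltaOf g * phiOf (sigE hF) ∧ (deltaOf (g * guMap hF (sigE hF) g) : MulAut (PSU n F q)) = 1 := by
  obtain ⟨hn, δ, φ, σ, he, hδ, hφ, rfl⟩ := hγ
  refine ⟨hn, ?_⟩
  obtain ⟨g, rfl⟩ := (isInnerDiag_iff δ).mp hδ
  have hφ' := isFieldAut_iff σ φ hφ
  subst hφ'
  have hsq : (deltaOf g * phiOf σ : MulAut (PSU n F q)) ^ 2 = 1 := by
    rw [← hγ2]
    exact pow_orderOf_eq_one _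
  rw [pow_delta_phi hF, normG_two] at hsq
  have hσ2 : σ ^ 2 = 1 := sigma_eq_one hF hn hsq
  have hσ1 : σ ≠ 1 := by
    rintro rfl
    rw [orderOf_one] at he
    exact Nat.not_even_one he
  obtain ⟨p, f, hp, hq, hf⟩ := exists_prime_pow hF
  haveI : Fact p.Prime := ⟨hp⟩
  have hF' : Fintype.card F = p ^ (2 * f) := by rw [hF, hq, ← pow_mul, mul_comm]
  obtain ⟨-, hF₀, hσ⟩ := involution_eq hF' (by omega) σ hσ1 hσ2
  have hσ' : σ = sigE hF := by
    rw [hσ]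
    ext x
    rw [sigE_apply, sigE_apply, hq, Nat.mul_div_cancel_left _ (by norm_num)]
  subst hσ'
  refine ⟨g, rfl, ?_⟩
  rw [sigE_sq hF, phiOf_one, mul_one] at hsq
  exact hsq

section Forms

variable {hF : Fintype.card F = q ^ 2} {j : F₀ →+* F}

local notation "σ₀" => sigE hF

theorem sim_iff (B k : GL (Fin n) F₀) (a : F₀ˣ) :
    (∀ x y, fB (B : Matrix (Fin n) (Fin n) F₀) ((k : Matrix (Fin n) (Fin n) F₀) *ᵥ x) ((k : Matrix (Fin n) (Fin n) F₀) *ᵥ y) = a * fB (B : Matrix (Fin n) (Fin n) F₀) x y) ↔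
      tG k * B * k = a • B := by
  constructor
  · intro h
    apply Units.ext
    apply fB_ext
    intro x y
    rw [coe_smulG, fB_smul_mat, ← h]
    simp only [Units.val_mul, coe_tG]
    rw [fB_mulVec]
  · intro h x y
    rw [fB_mulVec, ← coe_tG, ← Units.val_mul, ← Units.val_mul, h, coe_smulG, fB_smul_mat]

theorem sim_iff' (B B' k : GL (Fin n) F₀) (a : F₀ˣ) :
    (∀ x y, fB (B' : Matrix (Fin n) (Fin n) F₀) x y = a * fB (B : Matrix (Fin n) (Fin n) F₀) ((k : Matrix (Fin n) (Fin n) F₀) *ᵥ x) ((k : Matrix (Fin n) (Fin n) F₀) *ᵥ y)) ↔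
      B' = a • (tG k * B * k) := by
  constructor
  · intro h
    apply Units.ext
    apply fB_ext
    intro x y
    rw [h, coe_smulG, fB_smul_mat]
    simp only [Units.val_mul, coe_tG]
    rw [fB_mulVec]
  · rintro rfl x y
    rw [coe_smulG, fB_smul_mat]
    simp only [Units.val_mul, coe_tG]
    rw [fB_mulVec]

/-- The scalar attached to the symmetry type of a representation. -/
theorem tG_JG_of_rep {g : GU n F q} {P : GL (Fin n) F} {c η : Fˣ} {B : GL (Fin n) F₀}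
    (hj : JD hF j) (R : Rep hF j g P c η B) : tG (JG n j B) = (η * (uM σ₀ η)⁻¹) • JG n j B := by
  have h1 : mapG σ₀ (JG n j B) = JG n j B := hj.mapG_JG B
  obtain ⟨D, hD⟩ : ∃ D, D = tG P * mapG σ₀ P := ⟨_, rfl⟩
  have hB : JG n j B = η • D := by rw [R.hB, hD]
  have hD1 : tG D = mapG σ₀ D := by
    rw [hD, tG_mul, tG_tG, mapG_mul, mapG_mapG hF, mapG_tG]
  rw [hB, mapG_smul] at h1
  have h2 : mapG σ₀ D = ((uM σ₀ η)⁻¹ * η) • D := by
    rw [mul_smul, ← h1, smul_smul, inv_mul_cancel, one_smul]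
  rw [hB, tG_smul, hD1, h2, smul_smul, smul_smul]
  congr 1
  rw [mul_comm (_)⁻¹ η, mul_comm η, mul_assoc]

/-- The norm equation can be solved for similar forms. -/
theorem exists_b_of_sim {g g' : GU n F q} {P P' : GL (Fin n) F} {c c' η η' : Fˣ} {B B' : GL (Fin n) F₀}
    (hn : 1 ≤ n) (hj : JD hF j) (R : Rep hF j g P c η B) (R' : Rep hF j g' P' c' η' B') (k : GL (Fin n) F₀) (a₀ : F₀ˣ)
    (hsim : B' = a₀ • (tG k * B * k)) :
    ∃ b : Fˣ, b * uM σ₀ b * η' = η * Units.map (j : F₀ →* F) a₀ := by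
  have h1 := tG_JG_of_rep hj R
  have h2 := tG_JG_of_rep hj R'
  have e1 : tG B' = a₀ • (tG k * tG B * k) := by rw [hsim, tG_smul, tG_mul, tG_mul, tG_tG, mul_assoc]
  have e2 : JG n j B' = Units.map (j : F₀ →* F) a₀ • (JG n j (tG k) * JG n j B * JG n j k) := by
    rw [hsim, JG_smul, map_mul, map_mul]
  have h3 : tG (JG n j B') = (η * (uM σ₀ η)⁻¹) • JG n j B' := by
    rw [← JG_tG, e1, JG_smul, map_mul, map_mul, JG_tG j B, h1, mul_smul_comm, smul_mul_assoc, e2, smul_comm]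
  have h4 : η' * (uM σ₀ η')⁻¹ = η * (uM σ₀ η)⁻¹ := by
    rw [h2] at h3
    exact smul_left_eq hn h3
  have huj : uM σ₀ (Units.map (j : F₀ →* F) a₀) = Units.map (j : F₀ →* F) a₀ := by
    apply Units.ext
    rw [coe_uM]
    exact hj.fix _
  have hfix : uM σ₀ (η * Units.map (j : F₀ →* F) a₀ * η'⁻¹) = η * Units.map (j : F₀ →* F) a₀ * η'⁻¹ := by
    rw [map_mul, map_mul, map_inv, huj]
    have h5 : uM σ₀ η * (uM σ₀ η')⁻¹ = η * η'⁻¹ := by
      apply Units.ext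
      have h6 := congrArg Units.val h4
      simp only [Units.val_mul, Units.val_inv_eq_inv_val] at h6 ⊢
      have h7 : ((uM σ₀ η : Fˣ) : F) ≠ 0 := Units.ne_zero _
      have h8 : ((uM σ₀ η' : Fˣ) : F) ≠ 0 := Units.ne_zero _
      have h9 : ((η : Fˣ) : F) ≠ 0 := Units.ne_zero _
      have h10 : ((η' : Fˣ) : F) ≠ 0 := Units.ne_zero _
      rw [← div_eq_mul_inv, ← div_eq_mul_inv] at h6 ⊢
      rw [div_eq_div_iff h8 h7] at h6
      rw [div_eq_div_iff h8 h10]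
      linear_combination h6
    calc uM σ₀ η * Units.map (j : F₀ →* F) a₀ * (uM σ₀ η')⁻¹
        = (uM σ₀ η * (uM σ₀ η')⁻¹) * Units.map (j : F₀ →* F) a₀ := by rw [mul_right_comm]
      _ = _ := by rw [h5, mul_right_comm]
  obtain ⟨b, hb⟩ := exists_norm (hF := hF) hfix
  exact ⟨b, by rw [hb, inv_mul_cancel_right]⟩

variable {g g' : GU n F q} {P P' : GL (Fin n) F} {c c' η η' : Fˣ} {B B' : GL (Fin n) F₀}

/-- Conjugacy in terms of the forms. -/
theorem conj_form (hn : 3 ≤ n) (h32 : ¬ (n = 3 ∧ q = 2)) (hj : JD hF j) (R : Rep hF j g P c η B) (R' : Rep hF j g' P' c' η' B') :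
    IsConjUnder (inndiagPSU n F q) (deltaOf g * phiOf σ₀ : MulAut (PSU n F q)) (deltaOf g' * phiOf σ₀) ↔
      ∃ (k : GL (Fin n) F₀) (a : F₀ˣ), ∀ x y, fB (B' : Matrix (Fin n) (Fin n) F₀) x y =
        a * fB (B : Matrix (Fin n) (Fin n) F₀) ((k : Matrix (Fin n) (Fin n) F₀) *ᵥ x) ((k : Matrix (Fin n) (Fin n) F₀) *ᵥ y) := by
  simp only [sim_iff']
  constructor
  · rintro ⟨_, hh, hy⟩
    rw [inndiag_eq hF] at hh
    obtain ⟨v, rfl⟩ := hh
    obtain ⟨k, a₀, b, -, hs, -⟩ := sim_of_conj hn h32 hj R R' v⁻¹ (by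
      rw [hy]
      change deltaHom hF v⁻¹ * _ * (deltaHom hF v⁻¹)⁻¹ = _
      rw [map_inv]
      group)
    exact ⟨k, a₀, hs⟩
  · rintro ⟨k, a₀, hs⟩
    obtain ⟨b, hb⟩ := exists_b_of_sim (by omega) hj R R' k a₀ hs
    obtain ⟨u, -, hu⟩ := conj_of_sim hj R R' k a₀ b hs hb
    refine ⟨deltaHom hF u⁻¹, ?_, ?_⟩
    · rw [inndiag_eq hF]
      exact ⟨_, rfl⟩
    · rw [map_inv, ← hu]
      change _ = (deltaOf u : MulAut (PSU n F q))⁻¹ * _ * (deltaOf u : MulAut (PSU n F q))⁻¹⁻¹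
      group

/-! ### The centraliser -/

/-- The centraliser in `Inndiag`, given a subgroup of `GL ι F₀` describing the similarities of `B`. -/
theorem cent_iso_form (hn : 3 ≤ n) (h32 : ¬ (n = 3 ∧ q = 2)) (hj : JD hF j) (R : Rep hF j g P c η B)
    {ι : Type} [Fintype ι] [DecidableEq ι] (P₀ : (Fin n → F₀) ≃ₗ[F₀] (ι → F₀)) (S : Subgroup (GL ι F₀))
    (hS : ∀ h : GL ι F₀, h ∈ S ↔ ∃ a : F₀ˣ, ∀ x y, fB (B : Matrix (Fin n) (Fin n) F₀) (P₀.symm ((h : Matrix ι ι F₀) *ᵥ P₀ x)) (P₀.symm ((h : Matrix ι ι F₀) *ᵥ P₀ y)) =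
      a * fB (B : Matrix (Fin n) (Fin n) F₀) x y) :
    Nonempty (↥(inndiagPSU n F q ⊓ Subgroup.centralizer {(deltaOf g * phiOf σ₀ : MulAut (PSU n F q))}) ≃* projQuot S) := by
  classical
  have hn1 : 1 ≤ n := by omega
  have hS' : ∀ h : GL ι F₀, h ∈ S ↔ ∃ a : F₀ˣ, tG (cbG P₀ h) * B * cbG P₀ h = a • B := by
    intro h
    rw [hS]
    simp only [← sim_iff, mulVec_cbG]
  -- the transporter relation
  let Tr : GL ι F₀ → GU n F q → Prop := fun h u => ∃ b : Fˣ, u.1 = b • (P * JG n j (cbG P₀ h) * P⁻¹)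
  have hT2 : ∀ {h u v}, Tr h u → Tr h v → (deltaOf u : MulAut (PSU n F q)) = deltaOf v := by
    rintro h u v ⟨b, hb⟩ ⟨b', hb'⟩
    apply deltaOf_eq_of_smul hF (b * b'⁻¹)
    rw [hb, hb', smul_smul, inv_mul_cancel_right]
  have hT3 : ∀ {h h' u u'}, Tr h u → Tr h' u' → Tr (h * h') (u * u') := by
    rintro h h' u u' ⟨b, hb⟩ ⟨b', hb'⟩
    refine ⟨b * b', ?_⟩
    change u.1 * u'.1 = _
    rw [hb, hb', smul_mul_assoc, mul_smul_comm, smul_smul, map_mul, map_mul]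
    congr 1
    group
  have hT1 : ∀ h : S, ∃ u : GU n F q, Tr h u ∧
      (deltaOf u * (deltaOf g * phiOf σ₀) * (deltaOf u)⁻¹ : MulAut (PSU n F q)) = deltaOf g * phiOf σ₀ := by
    rintro ⟨h, hh⟩
    obtain ⟨a, ha⟩ := (hS' h).mp hh
    have hsim : B = a⁻¹ • (tG (cbG P₀ h) * B * cbG P₀ h) := by
      rw [ha, smul_smul, inv_mul_cancel, one_smul]
    obtain ⟨b, hb⟩ := exists_b_of_sim hn1 hj R R _ _ hsim
    obtain ⟨u, hu1, hu2⟩ := conj_of_sim hj R R _ _ b hsim hb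
    exact ⟨u, ⟨b, hu1⟩, hu2⟩
  choose U hU1 hU2 using hT1
  let f₀ : S →* MulAut (PSU n F q) := MonoidHom.mk' (fun h => deltaOf (U h)) (by
    intro h h'
    have h1 : Tr ((h * h' : S) : GL ι F₀) (U h * U h') := hT3 (hU1 h) (hU1 h')
    change (deltaOf (U (h * h')) : MulAut (PSU n F q)) = deltaOf (U h) * deltaOf (U h')
    rw [← deltaOf_mul hF]
    exact hT2 (hU1 _) h1)
  have hf₀ : ∀ m : S, f₀ m = deltaOf (U m) := fun m => rfl
  have hmem : ∀ m, f₀ m ∈ inndiagPSU n F q ⊓ Subgroup.centralizer {(deltaOf g * phiOf σ₀ : MulAut (PSU n F q))} := by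
    intro m
    refine Subgroup.mem_inf.mpr ⟨?_, ?_⟩
    · rw [inndiag_eq hF]
      exact ⟨U m, rfl⟩
    · rw [Subgroup.mem_centralizer_iff]
      rintro y rfl
      rw [hf₀]
      have h1 := hU2 m
      rw [mul_inv_eq_iff_eq_mul] at h1
      exact h1.symm
  let f : S →* ↥(inndiagPSU n F q ⊓ Subgroup.centralizer {(deltaOf g * phiOf σ₀ : MulAut (PSU n F q))}) := f₀.codRestrict _ hmem
  have hfs : Function.Surjective f := by
    rintro ⟨β, hβ⟩
    obtain ⟨hβ1, hβ2⟩ := Subgroup.mem_inf.mp hβ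
    rw [inndiag_eq hF] at hβ1
    obtain ⟨u, rfl⟩ := hβ1
    rw [Subgroup.mem_centralizer_iff] at hβ2
    have hβ3 := hβ2 _ rfl
    have hβ4 : (deltaOf u * (deltaOf g * phiOf σ₀) * (deltaOf u)⁻¹ : MulAut (PSU n F q)) = deltaOf g * phiOf σ₀ := by
      rw [mul_inv_eq_iff_eq_mul]
      exact hβ3.symm
    obtain ⟨k, a₀, b, hu, hs, -⟩ := sim_of_conj hn h32 hj R R u hβ4
    have hc : cbG P₀ ((cbG P₀).symm k) = k := MulEquiv.apply_symm_apply _ _
    have hmemS : (cbG P₀).symm k ∈ S := by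
      rw [hS', hc]
      refine ⟨a₀⁻¹, ?_⟩
      conv_rhs => rw [hs]
      rw [smul_smul, inv_mul_cancel, one_smul]
    refine ⟨⟨_, hmemS⟩, ?_⟩
    apply Subtype.ext
    change (deltaOf (U ⟨_, hmemS⟩) : MulAut (PSU n F q)) = deltaOf u
    apply hT2 (hU1 _)
    refine ⟨b, ?_⟩
    change u.1 = b • (P * JG n j (cbG P₀ ((cbG P₀).symm k)) * P⁻¹)
    rw [hc, hu]
  have hscal : ∀ {h u}, Tr h u → ((deltaOf u : MulAut (PSU n F q)) = 1 ↔ h ∈ Geo.scalars ι F₀) := by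
    rintro h u ⟨b, hb⟩
    rw [← cbG_mem_scalars_iff P₀]
    constructor
    · intro h1
      obtain ⟨t, ht⟩ := exists_smul_of_delta hF hn h32 (x := u) (g := 1) (by rw [h1, deltaOf_one])
      have h2 : JG n j (cbG P₀ h) = (b⁻¹ * t) • (1 : GL (Fin n) F) := by
        have h3 : b • (P * JG n j (cbG P₀ h) * P⁻¹) = t • (1 : GL (Fin n) F) := by
          rw [← hb]
          exact ht
        have h4 : P * JG n j (cbG P₀ h) * P⁻¹ = (b⁻¹ * t) • (1 : GL (Fin n) F) := by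
          rw [mul_smul, ← h3, smul_smul, inv_mul_cancel, one_smul]
        have h5 : JG n j (cbG P₀ h) = P⁻¹ * (P * JG n j (cbG P₀ h) * P⁻¹) * P := by group
        rw [h5, h4, mul_smul_comm, smul_mul_assoc]
        congr 1
        group
      let i₀ : Fin n := ⟨0, by omega⟩
      have h3 : ∀ a l, j (((cbG P₀ h : GL (Fin n) F₀) : Matrix (Fin n) (Fin n) F₀) a l) = ((b⁻¹ * t : Fˣ) : F) * (1 : Matrix (Fin n) (Fin n) F) a l := by
        intro a l
        have h4 := congrArg (fun w : GL (Fin n) F => (w : Matrix (Fin n) (Fin n) F) a l) h2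
        exact h4
      obtain ⟨z, hz⟩ : ∃ z, z = ((cbG P₀ h : GL (Fin n) F₀) : Matrix (Fin n) (Fin n) F₀) i₀ i₀ := ⟨_, rfl⟩
      have hz2 : j z = ((b⁻¹ * t : Fˣ) : F) := by
        rw [hz, h3, Matrix.one_apply_eq, mul_one]
      have hz0 : z ≠ 0 := by
        rintro rfl
        rw [map_zero] at hz2
        exact Units.ne_zero _ hz2.symm
      rw [Geo.mem_scalars_iff]
      refine ⟨Units.mk0 z hz0, ?_⟩
      ext a l
      apply j.injective
      rw [h3, ← hz2]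
      simp only [Matrix.smul_apply, smul_eq_mul, Units.val_mk0, map_mul]
      congr 1
      by_cases hal : a = l
      · subst hal
        simp
      · simp [hal, Matrix.one_apply]
    · intro h1
      obtain ⟨z, hz⟩ := (Geo.mem_scalars_iff _).mp h1
      have h2 : JG n j (cbG P₀ h) = Units.map (j : F₀ →* F) z • (1 : GL (Fin n) F) := by
        apply Units.ext
        rw [coe_JG, hz, coe_smulG, Units.val_one]
        ext a l
        simp [Matrix.smul_apply, Matrix.one_apply]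
        split_ifs <;> simp
      rw [← deltaOf_one]
      apply deltaOf_eq_of_smul hF (b * Units.map (j : F₀ →* F) z)
      change u.1 = _ • (1 : GL (Fin n) F)
      rw [hb, h2, mul_smul_comm, smul_mul_assoc, smul_smul, mul_one, mul_inv_cancel]
  have hker : f.ker = (Geo.scalars ι F₀).subgroupOf S := by
    ext m
    rw [MonoidHom.mem_ker, Subgroup.mem_subgroupOf, ← hscal (hU1 m), Subtype.ext_iff]
    rfl
  exact ⟨(QuotientGroup.quotientKerEquivOfSurjective f hfs).symm.trans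
    (QuotientGroup.quotientMulEquivOfEq hker)⟩

/-- Model: a bilinear form. -/
theorem cent_iso_bil (hn : 3 ≤ n) (h32 : ¬ (n = 3 ∧ q = 2)) (hj : JD hF j) (R : Rep hF j g P c η B) {ι : Type} [Fintype ι] [DecidableEq ι]
    (P₀ : (Fin n → F₀) ≃ₗ[F₀] (ι → F₀)) (f : (ι → F₀) → (ι → F₀) → F₀) (c₀ : F₀ˣ)
    (hf : ∀ x y, f (P₀ x) (P₀ y) = c₀ * fB (B : Matrix (Fin n) (Fin n) F₀) x y) :
    Nonempty (↥(inndiagPSU n F q ⊓ Subgroup.centralizer {(deltaOf g * phiOf σ₀ : MulAut (PSU n F q))}) ≃* projQuot (Geo.similarityGroup f)) := by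
  apply cent_iso_form hn h32 hj R P₀
  intro h
  have hc : (c₀ : F₀) ≠ 0 := c₀.ne_zero
  constructor
  · rintro ⟨a, ha⟩
    refine ⟨a, fun x y => ?_⟩
    have h1 := ha (P₀ x) (P₀ y)
    have h2 := hf (P₀.symm ((h : Matrix ι ι F₀) *ᵥ P₀ x)) (P₀.symm ((h : Matrix ι ι F₀) *ᵥ P₀ y))
    rw [LinearEquiv.apply_symm_apply, LinearEquiv.apply_symm_apply, h1, hf x y] at h2
    apply mul_left_cancel₀ hc
    linear_combination -h2
  · rintro ⟨a, ha⟩
    refine ⟨a, fun u v => ?_⟩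
    obtain ⟨x, rfl⟩ := P₀.surjective u
    obtain ⟨y, rfl⟩ := P₀.surjective v
    have h2 := hf (P₀.symm ((h : Matrix ι ι F₀) *ᵥ P₀ x)) (P₀.symm ((h : Matrix ι ι F₀) *ᵥ P₀ y))
    rw [LinearEquiv.apply_symm_apply, LinearEquiv.apply_symm_apply, ha x y] at h2
    rw [h2, hf x y]
    ring

/-- Model: a quadratic form. -/
theorem cent_iso_quad (hn : 3 ≤ n) (h32 : ¬ (n = 3 ∧ q = 2)) (hj : JD hF j) (R : Rep hF j g P c η B) (h2 : (2 : F₀) ≠ 0) (hB : IsSy B) {ι : Type} [Fintype ι] [DecidableEq ι]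
    (P₀ : (Fin n → F₀) ≃ₗ[F₀] (ι → F₀)) (Q : (ι → F₀) → F₀) (c₀ : F₀ˣ)
    (hQ : ∀ x, Q (P₀ x) = c₀ * fB (B : Matrix (Fin n) (Fin n) F₀) x x) :
    Nonempty (↥(inndiagPSU n F q ⊓ Subgroup.centralizer {(deltaOf g * phiOf σ₀ : MulAut (PSU n F q))}) ≃* PGO F₀ Q) := by
  apply cent_iso_form hn h32 hj R P₀
  intro h
  have hc : (c₀ : F₀) ≠ 0 := c₀.ne_zero
  constructor
  · rintro ⟨a, ha⟩
    refine ⟨a, ?_⟩
    -- polarise
    let k : Matrix (Fin n) (Fin n) F₀ := LinearMap.toMatrix' ((P₀.symm : (ι → F₀) →ₗ[F₀] (Fin n → F₀)) ∘ₗ (Matrix.mulVecLin (h : Matrix ι ι F₀)) ∘ₗ (P₀ : (Fin n → F₀) →ₗ[F₀] (ι → F₀)))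
    have hk : ∀ x, k *ᵥ x = P₀.symm ((h : Matrix ι ι F₀) *ᵥ P₀ x) := by
      intro x
      rw [LinearMap.toMatrix'_mulVec]
      rfl
    have h3 : ∀ x, fB (kᵀ * (B : Matrix (Fin n) (Fin n) F₀) * k) x x = fB ((a : F₀) • (B : Matrix (Fin n) (Fin n) F₀)) x x := by
      intro x
      rw [← fB_mulVec, hk, fB_smul_mat]
      have h1 := ha (P₀ x)
      have h4 := hQ (P₀.symm ((h : Matrix ι ι F₀) *ᵥ P₀ x))
      rw [LinearEquiv.apply_symm_apply, h1, hQ x] at h4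
      apply mul_left_cancel₀ hc
      linear_combination -h4
    intro x y
    have h5 := polarize_sym h2 (A := kᵀ * (B : Matrix (Fin n) (Fin n) F₀) * k) (C := (a : F₀) • (B : Matrix (Fin n) (Fin n) F₀))
      (by
        intro x y
        rw [← fB_mulVec, ← fB_mulVec]
        exact hB _ _)
      (by
        intro x y
        rw [fB_smul_mat, fB_smul_mat, hB x y])
      h3 x y
    rw [← fB_mulVec, hk, hk, fB_smul_mat] at h5
    exact h5
  · rintro ⟨a, ha⟩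
    refine ⟨a, fun v => ?_⟩
    obtain ⟨x, rfl⟩ := P₀.surjective v
    have h3 := hQ (P₀.symm ((h : Matrix ι ι F₀) *ᵥ P₀ x))
    rw [LinearEquiv.apply_symm_apply, ha x x] at h3
    rw [h3, hQ x]
    ring


/-! ### Conjugacy from models -/

/-- Same bilinear model up to scalars implies conjugate. -/
theorem conj_of_model (hn : 3 ≤ n) (h32 : ¬ (n = 3 ∧ q = 2)) (hj : JD hF j) (R : Rep hF j g P c η B) (R' : Rep hF j g' P' c' η' B')
    {ι : Type} (f : (ι → F₀) → (ι → F₀) → F₀)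
    (Q Q' : (Fin n → F₀) ≃ₗ[F₀] (ι → F₀)) (a a' : F₀ˣ)
    (h : ∀ x y, f (Q x) (Q y) = a * fB (B : Matrix (Fin n) (Fin n) F₀) x y)
    (h' : ∀ x y, f (Q' x) (Q' y) = a' * fB (B' : Matrix (Fin n) (Fin n) F₀) x y) :
    IsConjUnder (inndiagPSU n F q) (deltaOf g * phiOf σ₀ : MulAut (PSU n F q)) (deltaOf g' * phiOf σ₀) := by
  rw [conj_form hn h32 hj R R']
  refine ⟨ofE (Q'.trans Q.symm), a'⁻¹ * a, fun x y => ?_⟩
  rw [mulVec_ofE, mulVec_ofE, Units.val_mul, mul_assoc, ← h]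
  simp only [LinearEquiv.trans_apply, LinearEquiv.apply_symm_apply]
  rw [h' x y, ← mul_assoc, Units.val_inv_eq_inv_val, inv_mul_cancel₀ a'.ne_zero, one_mul]

/-- Same quadratic model up to scalars implies conjugate. -/
theorem conj_of_quad (hn : 3 ≤ n) (h32 : ¬ (n = 3 ∧ q = 2)) (hj : JD hF j) (R : Rep hF j g P c η B) (R' : Rep hF j g' P' c' η' B')
    (h2 : (2 : F₀) ≠ 0) (hB : IsSy B) (hB' : IsSy B') {ι : Type}
    (Qd : (ι → F₀) → F₀) (Q Q' : (Fin n → F₀) ≃ₗ[F₀] (ι → F₀)) (a a' : F₀ˣ)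
    (h : ∀ x, Qd (Q x) = a * fB (B : Matrix (Fin n) (Fin n) F₀) x x)
    (h' : ∀ x, Qd (Q' x) = a' * fB (B' : Matrix (Fin n) (Fin n) F₀) x x) :
    IsConjUnder (inndiagPSU n F q) (deltaOf g * phiOf σ₀ : MulAut (PSU n F q)) (deltaOf g' * phiOf σ₀) := by
  rw [conj_form hn h32 hj R R']
  have hk := mulVec_ofE (Q'.trans Q.symm)
  refine ⟨ofE (Q'.trans Q.symm), a'⁻¹ * a, ?_⟩
  obtain ⟨K, hK⟩ : ∃ K : GL (Fin n) F₀, K = ofE (Q'.trans Q.symm) := ⟨_, rfl⟩
  rw [← hK] at hk ⊢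
  have h3 : ∀ x, fB (B' : Matrix (Fin n) (Fin n) F₀) x x =
      fB (((a'⁻¹ * a : F₀ˣ) : F₀) • ((K : Matrix (Fin n) (Fin n) F₀)ᵀ * (B : Matrix (Fin n) (Fin n) F₀) * (K : Matrix (Fin n) (Fin n) F₀))) x x := by
    intro x
    rw [fB_smul_mat, ← fB_mulVec, hk, Units.val_mul, mul_assoc, ← h]
    simp only [LinearEquiv.trans_apply, LinearEquiv.apply_symm_apply]
    rw [h' x, ← mul_assoc, Units.val_inv_eq_inv_val, inv_mul_cancel₀ a'.ne_zero, one_mul]
  intro x y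
  have h5 := polarize_sym h2 hB' (by
    intro x y
    rw [fB_smul_mat, fB_smul_mat, ← fB_mulVec, ← fB_mulVec]
    rw [hB _ _]) h3 x y
  rw [h5, fB_smul_mat, fB_mulVec]

/-- Alternating forms are not conjugate to nonalternating ones. -/
theorem not_conj_alt (hn : 3 ≤ n) (h32 : ¬ (n = 3 ∧ q = 2)) (hj : JD hF j) (R : Rep hF j g P c η B) (R' : Rep hF j g' P' c' η' B')
    (hB : IsAl B) (hB' : ¬ IsAl B') :
    ¬ IsConjUnder (inndiagPSU n F q) (deltaOf g * phiOf σ₀ : MulAut (PSU n F q)) (deltaOf g' * phiOf σ₀) := by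
  rw [conj_form hn h32 hj R R']
  rintro ⟨k, a, h⟩
  apply hB'
  intro x
  rw [h, hB _, mul_zero]

theorem not_conj_plus_minus (hn : 3 ≤ n) (h32 : ¬ (n = 3 ∧ q = 2)) (hj : JD hF j) (R : Rep hF j g P c η B) (R' : Rep hF j g' P' c' η' B')
    {m : ℕ} (hm : 1 ≤ m) {ζ : F₀} (hζ : ∀ t : F₀, t ^ 2 + t + ζ ≠ 0)
    (Q : (Fin n → F₀) ≃ₗ[F₀] (Fin m ⊕ Fin m → F₀)) (Q' : (Fin n → F₀) ≃ₗ[F₀] ((Fin (m - 1) ⊕ Fin (m - 1)) ⊕ Fin 2 → F₀))
    (h : ∀ x, quadFormPlus m F₀ (Q x) = fB (B : Matrix (Fin n) (Fin n) F₀) x x)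
    (h' : ∀ x, quadFormMinus (m - 1) F₀ 1 ζ (Q' x) = fB (B' : Matrix (Fin n) (Fin n) F₀) x x) :
    ¬ IsConjUnder (inndiagPSU n F q) (deltaOf g * phiOf σ₀ : MulAut (PSU n F q)) (deltaOf g' * phiOf σ₀) := by
  rw [conj_form hn h32 hj R R']
  rintro ⟨k, a, hk⟩
  let K : (Fin n → F₀) ≃ₗ[F₀] (Fin n → F₀) := Matrix.GeneralLinearGroup.toLin.trans (LinearMap.GeneralLinearGroup.generalLinearEquiv F₀ (Fin n → F₀)) k
  have hK : ∀ x, K x = (k : Matrix (Fin n) (Fin n) F₀) *ᵥ x := fun x => rfl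
  apply not_similar_plus_minus hm hζ ((Q.symm.trans K.symm).trans Q') a
  intro v
  simp only [LinearEquiv.trans_apply]
  rw [h', hk, ← hK, LinearEquiv.apply_symm_apply, ← h, LinearEquiv.apply_symm_apply]

end Forms

end Cfsg.Agent.Lib.Classical.GraphU.Cent
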