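import Mathlib
import Cfsg.Agent.Lib.Classical.GraphU.Cent
import Cfsg.Agent.Lib.Classical.GraphAut.Split
import Cfsg.Agent.Lib.Classical.GraphAut.Char2Iso

/-!
# Involutory graph automorphisms of `PSU_n`: the number of `PSU`-classes
-/

set_option autoImplicit false
set_option linter.unusedSectionVars false
set_option linter.unusedSimpArgs false
set_option linter.unusedVariables false
set_option linter.style.haveILetI false

open scoped Matrix MatrixGroups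
open Cfsg
open Cfsg.Agent.Lib.Classical.Herm.Basic Cfsg.Agent.Lib.Classical.Herm.GU Cfsg.Agent.Lib.Classical.Herm.SU
open Cfsg.Agent.Lib.Classical.Herm.Psi Cfsg.Agent.Lib.Classical.Herm.AutMain
open Cfsg.Agent.Lib.Classical.Herm.AutStruct Cfsg.Agent.Lib.Classical.Herm.Descent
open Cfsg.Agent.Lib.Classical.Herm.GLDescent Cfsg.Agent.Lib.Classical.Herm.PSLGraphField
open Cfsg.Agent.Lib.Classical.Herm.FieldCent Cfsg.Agent.Lib.Classical.Herm.SplitAbs
open Cfsg.Agent.Lib.Linalg.AutPSLStd Cfsg.Agent.Lib.Classical.GraphAut.Basic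
open Cfsg.Agent.Lib.Classical.GraphAut.Forms Cfsg.Agent.Lib.Classical.GraphAut.Models
open Cfsg.Agent.Lib.Classical.GraphAut.Split
open Cfsg.Agent.Lib.Classical.GraphU.Basic Cfsg.Agent.Lib.Classical.GraphU.Cent
open Cfsg.Agent.Lib.Classical.Symp.Basic
open Cfsg.Agent.Lib.Classical.Herm.Abar
open Module

namespace Cfsg.Agent.Lib.Classical.GraphU.Count

variable {F : Type*} [Field F] [Fintype F] {q n : ℕ}
variable {F₀ : Type*} [Field F₀] [Fintype F₀]

local notation "gdet" => Matrix.GeneralLinearGroup.det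

/-- The number of `PSU`-classes in the `PGU`-class. -/
theorem split_count_gu (hF : Fintype.card F = q ^ 2) (hn : 1 ≤ n) (x : MulAut (PSU n F q)) (W : Subgroup (normOne F q))
    (h1 : ∀ g : GU n F q, x * deltaOf g = deltaOf g * x → detS hF hn g ∈ W)
    (h2 : ∀ w ∈ W, ∃ u : GU n F q, x * deltaOf u = deltaOf u * x ∧ detS hF hn u = w) :
    splitClassCount (inndiagPSU n F q) (Inn (PSU n F q)) x = W.index := by
  classical
  apply split_count_abs (deltaHom hF : GU n F q →* MulAut (PSU n F q)) (detS hF hn) (detS_surjective hF hn)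
  · exact inndiag_eq hF
  · rintro κ ⟨a, rfl⟩
    obtain ⟨s, rfl⟩ := piSU_surjective a
    refine ⟨suToGU hF s, ?_, (deltaOf_suToGU hF s).symm⟩
    apply Subtype.ext
    apply Units.ext
    exact (s : Matrix.SpecialLinearGroup (Fin n) F).2
  · intro g hg
    have h3 : detGU n F q g = 1 := congrArg Subtype.val hg
    obtain ⟨s, hs⟩ := exists_su_of_det_one hF _ h3
    refine ⟨piSU n F q s, ?_⟩
    change MulAut.conj (piSU n F q s) = deltaOf g
    rw [← deltaOf_suToGU hF s, hs]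
  · exact h1
  · exact h2

section Data

variable {hF : Fintype.card F = q ^ 2} {j : F₀ →+* F}

local notation "σ₀" => sigE hF

variable {g : GU n F q} {P : GL (Fin n) F} {c η : Fˣ} {B : GL (Fin n) F₀}

theorem mul_uM_eq (b : Fˣ) : b * uM σ₀ b = b ^ (q + 1) := by
  apply Units.ext
  rw [Units.val_mul, coe_uM, sigE_apply, Units.val_pow_eq_pow_val, pow_succ']

theorem mem_S_iff (b : Fˣ) : b ∈ normOne F q ↔ b * uM σ₀ b = 1 := by
  rw [mem_normOne, mul_uM_eq]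

/-- An element commuting with `x`. -/
theorem comm_data (hn : 3 ≤ n) (h32 : ¬ (n = 3 ∧ q = 2)) (hj : JD hF j) (R : Rep hF j g P c η B) (u : GU n F q)
    (h : (deltaOf g * phiOf σ₀ * deltaOf u : MulAut (PSU n F q)) = deltaOf u * (deltaOf g * phiOf σ₀)) :
    ∃ (k : GL (Fin n) F₀) (a : F₀ˣ) (b : Fˣ), u.1 = b • (P * JG n j k * P⁻¹) ∧
      (∀ x y, fB (B : Matrix (Fin n) (Fin n) F₀) ((k : Matrix (Fin n) (Fin n) F₀) *ᵥ x) ((k : Matrix (Fin n) (Fin n) F₀) *ᵥ y) = a * fB (B : Matrix (Fin n) (Fin n) F₀) x y) ∧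
      b * uM σ₀ b = (Units.map (j : F₀ →* F) a)⁻¹ := by
  obtain ⟨k, a₀, b, hu, hs, hN⟩ := sim_of_conj hn h32 hj R R u (by
    rw [mul_inv_eq_iff_eq_mul]
    exact h.symm)
  refine ⟨k, a₀⁻¹, b, hu, ?_, ?_⟩
  · rw [sim_iff]
    conv_rhs => rw [hs]
    rw [smul_smul, inv_mul_cancel, one_smul]
  · rw [map_inv, inv_inv]
    exact mul_left_cancel (a := η) (by
      rw [← hN]
      apply Units.ext
      simp only [Units.val_mul]
      ring)

/-- Constructing an element commuting with `x`. -/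
theorem comm_exists (hj : JD hF j) (R : Rep hF j g P c η B) (k : GL (Fin n) F₀) (a : F₀ˣ) (b : Fˣ)
    (hk : ∀ x y, fB (B : Matrix (Fin n) (Fin n) F₀) ((k : Matrix (Fin n) (Fin n) F₀) *ᵥ x) ((k : Matrix (Fin n) (Fin n) F₀) *ᵥ y) = a * fB (B : Matrix (Fin n) (Fin n) F₀) x y)
    (hb : b * uM σ₀ b = (Units.map (j : F₀ →* F) a)⁻¹) :
    ∃ u : GU n F q, u.1 = b • (P * JG n j k * P⁻¹) ∧
      (deltaOf g * phiOf σ₀ * deltaOf u : MulAut (PSU n F q)) = deltaOf u * (deltaOf g * phiOf σ₀) := by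
  have hsim : B = a⁻¹ • (tG k * B * k) := by
    rw [(sim_iff B k a).mp hk, smul_smul, inv_mul_cancel, one_smul]
  obtain ⟨u, hu1, hu2⟩ := conj_of_sim hj R R k a⁻¹ b hsim (by
    rw [hb, map_inv]
    exact mul_comm _ _)
  refine ⟨u, hu1, ?_⟩
  rw [mul_inv_eq_iff_eq_mul] at hu2
  exact hu2.symm

theorem detS_of (hn : 1 ≤ n) {u : GU n F q} {P : GL (Fin n) F} {k : GL (Fin n) F₀} {b : Fˣ} (hu : u.1 = b • (P * JG n j k * P⁻¹)) :
    ((detS hF hn u : normOne F q) : Fˣ) = b ^ n * Units.map (j : F₀ →* F) (gdet k) := by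
  apply Units.ext
  change (u.1 : Matrix (Fin n) (Fin n) F).det = _
  rw [hu, coe_smulG, Matrix.det_smul, Fintype.card_fin]
  simp only [Units.val_mul, Units.val_pow_eq_pow_val]
  congr 1
  have h1 : gdet (P * JG n j k * P⁻¹) = gdet (JG n j k) := by
    rw [map_mul, map_mul, map_inv, mul_comm (gdet P), mul_inv_cancel_right]
  have h2 := congrArg Units.val h1
  rw [Matrix.GeneralLinearGroup.val_det_apply, Matrix.GeneralLinearGroup.val_det_apply, coe_JG] at h2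
  have h3 : ((P : Matrix (Fin n) (Fin n) F) * ((JG n j k : GL (Fin n) F) : Matrix (Fin n) (Fin n) F) * ((P⁻¹ : GL (Fin n) F) : Matrix (Fin n) (Fin n) F)).det =
      ((k : Matrix (Fin n) (Fin n) F₀).map j).det := h2
  rw [h3]
  change ((k : Matrix (Fin n) (Fin n) F₀).map j).det = j ((gdet k : F₀ˣ) : F₀)
  rw [Matrix.GeneralLinearGroup.val_det_apply]
  exact (RingHom.map_det j _).symm

/-- The norm-one element attached to `s`. -/
theorem detS_sc (hn : 1 ≤ n) (s : normOne F q) :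
    detS hF hn (sc hF ((s : Fˣ) : F) (pow_val_S s)) = s ^ n := by
  apply Subtype.ext
  apply Units.ext
  rw [coe_detS, coe_sc, det_scalar']
  rfl

theorem comm_sc (x : MulAut (PSU n F q)) (s : normOne F q) :
    x * deltaOf (sc hF ((s : Fˣ) : F) (pow_val_S s)) = deltaOf (sc hF ((s : Fˣ) : F) (pow_val_S s)) * x := by
  rw [deltaOf_scalar (coe_sc hF _ _), mul_one, one_mul]

/-- The uniform count. -/
theorem count_uniform_U (hn : 3 ≤ n) (h32 : ¬ (n = 3 ∧ q = 2)) (hj : JD hF j) (R : Rep hF j g P c η B)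
    (hW : ∀ d a : F₀ˣ, d ^ 2 = a ^ n → ∃ l : F₀ˣ, l ^ 2 = a ∧ d = l ^ n) :
    splitClassCount (inndiagPSU n F q) (Inn (PSU n F q)) (deltaOf g * phiOf σ₀) = Nat.gcd n (q + 1) := by
  have hn1 : 1 ≤ n := by omega
  rw [split_count_gu hF hn1 _ (powMonoidHom n : normOne F q →* normOne F q).range, IsCyclic.index_powMonoidHom_range, card_S hF, Nat.gcd_comm]
  · intro u hu
    obtain ⟨k, a, b, hb1, hb2, hb3⟩ := comm_data hn h32 hj R u hu
    obtain ⟨l, hl1, hl2⟩ := hW _ _ (det_sq_of_sim hb2)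
    have hs : b * Units.map (j : F₀ →* F) l ∈ normOne F q := by
      rw [mem_S_iff (hF := hF), map_mul]
      have hu : uM σ₀ (Units.map (j : F₀ →* F) l) = Units.map (j : F₀ →* F) l := by
        apply Units.ext
        rw [coe_uM]
        exact hj.fix _
      rw [hu, mul_mul_mul_comm, hb3, ← map_mul, ← pow_two, hl1, inv_mul_cancel]
    refine ⟨⟨_, hs⟩, ?_⟩
    apply Subtype.ext
    rw [detS_of hn1 hb1, hl2, map_pow]
    exact mul_pow _ _ _
  · rintro _ ⟨s, rfl⟩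
    exact ⟨_, comm_sc _ s, detS_sc hn1 s⟩

theorem s_mem (b : Fˣ) : b * (uM σ₀ b)⁻¹ ∈ normOne F q := by
  rw [mem_S_iff (hF := hF), map_mul, map_inv, uM_uM hF]
  group

theorem det_eq_pow {m : ℕ} (hnm : n = 2 * m) {b : Fˣ} {a : F₀ˣ} (hb : b * uM σ₀ b = (Units.map (j : F₀ →* F) a)⁻¹) :
    b ^ n * Units.map (j : F₀ →* F) (a ^ m) = (b * (uM σ₀ b)⁻¹) ^ m := by
  have h1 : Units.map (j : F₀ →* F) a = (b * uM σ₀ b)⁻¹ := by
    rw [hb, inv_inv]
  rw [map_pow, h1, hnm, pow_mul, ← mul_pow]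
  congr 1
  rw [mul_inv, pow_two, mul_assoc, mul_inv_cancel_left]

theorem exists_of_z (hj : JD hF j) (z : normOne F q) :
    ∃ (b : Fˣ) (a₁ : F₀ˣ), b * uM σ₀ b = (Units.map (j : F₀ →* F) a₁)⁻¹ ∧ (z : Fˣ) = b * (uM σ₀ b)⁻¹ := by
  obtain ⟨b, hb⟩ := exists_hilb (hF := hF) (μ := (z : Fˣ)) ((mem_S_iff (hF := hF) _).mp z.2)
  have hfix : uM σ₀ (b * uM σ₀ b)⁻¹ = (b * uM σ₀ b)⁻¹ := by
    rw [map_inv, map_mul, uM_uM hF, mul_comm]
  obtain ⟨a₁, ha₁⟩ := hj.unit_of_fix _ hfix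
  refine ⟨b, a₁, ?_, ?_⟩
  · rw [ha₁, inv_inv]
  · calc (z : Fˣ) = ((z : Fˣ) * uM σ₀ b) * (uM σ₀ b)⁻¹ := by rw [mul_inv_cancel_right]
      _ = _ := by rw [hb]

/-- The determinant of a similarity of an alternating form. -/
theorem det_alt {B : GL (Fin n) F₀} (hB : IsAl B) {m : ℕ} (hnm : n = 2 * m) (k : GL (Fin n) F₀) (a : F₀ˣ)
    (ha : ∀ x y, fB (B : Matrix (Fin n) (Fin n) F₀) ((k : Matrix (Fin n) (Fin n) F₀) *ᵥ x) ((k : Matrix (Fin n) (Fin n) F₀) *ᵥ y) = a * fB (B : Matrix (Fin n) (Fin n) F₀) x y) :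
    gdet k = a ^ m := by
  classical
  obtain ⟨P, hP⟩ := alt_model hB hnm
  obtain ⟨g', hg'⟩ : ∃ g', g' = cbG P.symm k := ⟨_, rfl⟩
  have h1 : ∀ u v, sympForm m F₀ ((g' : Matrix (Fin m ⊕ Fin m) (Fin m ⊕ Fin m) F₀) *ᵥ u) ((g' : Matrix (Fin m ⊕ Fin m) (Fin m ⊕ Fin m) F₀) *ᵥ v) = a * sympForm m F₀ u v := by
    intro u v
    rw [hg', mulVec_cbG, mulVec_cbG, LinearEquiv.symm_symm, hP, ha]
    rw [← hP, LinearEquiv.apply_symm_apply, LinearEquiv.apply_symm_apply]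
  have h2 : ((g' * (dJ m a)⁻¹ : GL (Fin m ⊕ Fin m) F₀) : Matrix (Fin m ⊕ Fin m) (Fin m ⊕ Fin m) F₀) ∈ Matrix.symplecticGroup (Fin m) F₀ := by
    rw [mem_symplecticGroup_iff_forall]
    intro u v
    rw [Units.val_mul, ← Matrix.mulVec_mulVec, ← Matrix.mulVec_mulVec, h1]
    have h3 := sympForm_dJ m a (((dJ m a)⁻¹ : GL (Fin m ⊕ Fin m) F₀) *ᵥ u) (((dJ m a)⁻¹ : GL (Fin m ⊕ Fin m) F₀) *ᵥ v)
    rw [← h3, Matrix.mulVec_mulVec, Matrix.mulVec_mulVec, ← Units.val_mul, mul_inv_cancel, Units.val_one,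
      Matrix.one_mulVec, Matrix.one_mulVec]
  have h3 := SymplecticGroup.det_eq_one h2
  apply Units.ext
  rw [← det_dJ m a]
  rw [Matrix.GeneralLinearGroup.val_det_apply, Matrix.GeneralLinearGroup.val_det_apply, ← det_cbG P.symm k, ← hg']
  rw [Units.val_mul, Matrix.det_mul] at h3
  have h4 : ((dJ m a : GL (Fin m ⊕ Fin m) F₀) : Matrix (Fin m ⊕ Fin m) (Fin m ⊕ Fin m) F₀).det *
      (((dJ m a)⁻¹ : GL (Fin m ⊕ Fin m) F₀) : Matrix (Fin m ⊕ Fin m) (Fin m ⊕ Fin m) F₀).det = 1 := by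
    rw [← Matrix.det_mul, ← Units.val_mul, mul_inv_cancel, Units.val_one, Matrix.det_one]
  calc (g' : Matrix (Fin m ⊕ Fin m) (Fin m ⊕ Fin m) F₀).det
      = (g' : Matrix (Fin m ⊕ Fin m) (Fin m ⊕ Fin m) F₀).det * ((dJ m a : GL (Fin m ⊕ Fin m) F₀) : Matrix (Fin m ⊕ Fin m) (Fin m ⊕ Fin m) F₀).det *
      (((dJ m a)⁻¹ : GL (Fin m ⊕ Fin m) F₀) : Matrix (Fin m ⊕ Fin m) (Fin m ⊕ Fin m) F₀).det := by rw [mul_assoc, h4, mul_one]
    _ = _ := by
      rw [mul_right_comm, h3, one_mul]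

/-- The number of classes, alternating forms. -/
theorem count_alt_U (hn : 3 ≤ n) (h32 : ¬ (n = 3 ∧ q = 2)) (hj : JD hF j) (R : Rep hF j g P c η B)
    (hB : IsAl B) {m : ℕ} (hnm : n = 2 * m) :
    splitClassCount (inndiagPSU n F q) (Inn (PSU n F q)) (deltaOf g * phiOf σ₀) = Nat.gcd m (q + 1) := by
  classical
  have hn1 : 1 ≤ n := by omega
  obtain ⟨P₀, hP₀⟩ := alt_model hB hnm
  rw [split_count_gu hF hn1 _ (powMonoidHom m : normOne F q →* normOne F q).range, IsCyclic.index_powMonoidHom_range, card_S hF, Nat.gcd_comm]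
  · intro u hu
    obtain ⟨k, a, b, hb1, hb2, hb3⟩ := comm_data hn h32 hj R u hu
    refine ⟨⟨_, s_mem (hF := hF) b⟩, ?_⟩
    apply Subtype.ext
    rw [detS_of hn1 hb1, det_alt hB hnm k a hb2, det_eq_pow hnm hb3]
    rfl
  · rintro _ ⟨z, rfl⟩
    obtain ⟨b, a₁, hb, hz⟩ := exists_of_z (hF := hF) hj z
    have hk : ∀ x y, fB (B : Matrix (Fin n) (Fin n) F₀) ((cbG P₀ (dJ m a₁) : Matrix (Fin n) (Fin n) F₀) *ᵥ x) ((cbG P₀ (dJ m a₁) : Matrix (Fin n) (Fin n) F₀) *ᵥ y) = a₁ * fB (B : Matrix (Fin n) (Fin n) F₀) x y := by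
      intro x y
      rw [← hP₀, ← hP₀, mulVec_cbG, mulVec_cbG, LinearEquiv.apply_symm_apply, LinearEquiv.apply_symm_apply, sympForm_dJ]
    obtain ⟨u, hu1, hu2⟩ := comm_exists hj R _ a₁ b hk hb
    refine ⟨u, hu2, ?_⟩
    apply Subtype.ext
    have hd : gdet (cbG P₀ (dJ m a₁)) = a₁ ^ m := det_alt hB hnm _ a₁ hk
    rw [detS_of hn1 hu1, hd, det_eq_pow hnm hb]
    change _ = (z : Fˣ) ^ m
    rw [hz]

/-- The number of classes, symmetric forms in even dimension. -/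
theorem count_sym_U (hn : 3 ≤ n) (h32 : ¬ (n = 3 ∧ q = 2)) (hj : JD hF j) (R : Rep hF j g P c η B)
    (hodd : Odd q) (h2 : (2 : F₀) ≠ 0) (hB : IsSy B) {m : ℕ} (hm : 1 ≤ m) (hnm : n = 2 * m) :
    splitClassCount (inndiagPSU n F q) (Inn (PSU n F q)) (deltaOf g * phiOf σ₀) = Nat.gcd n (q + 1) / 2 := by
  classical
  have hn1 : 1 ≤ n := by omega
  obtain ⟨t, ht⟩ := hodd
  have hc : Nat.card (normOne F q) = (t + 1) * 2 := by
    rw [card_S hF, ht]
    ring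
  have hq1 : q + 1 = 2 * (t + 1) := by omega
  have hnegmem : (-1 : Fˣ) ∈ normOne F q := by
    rw [mem_normOne, hq1, pow_mul]
    simp
  obtain ⟨negS, hnegS⟩ : ∃ negS : normOne F q, negS = ⟨-1, hnegmem⟩ := ⟨_, rfl⟩
  have h2F : (2 : F) ≠ 0 := by
    rw [← map_ofNat j 2]
    simpa using h2
  have hne1 : (-1 : Fˣ) ≠ 1 := by
    intro h
    have h3 := congrArg Units.val h
    simp only [Units.val_neg, Units.val_one] at h3
    apply h2F
    linear_combination -h3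
  have hinv : ∀ y : normOne F q, y * y = 1 → y = 1 ∨ y = negS := by
    intro y hy
    have h3 : ((y : Fˣ) : F) * ((y : Fˣ) : F) = 1 := by
      have := congrArg (fun w : normOne F q => ((w : Fˣ) : F)) hy
      simpa using this
    rcases mul_self_eq_one_iff.mp h3 with h4 | h4
    · left
      exact Subtype.ext (Units.ext h4)
    · right
      rw [hnegS]
      exact Subtype.ext (Units.ext (by simpa using h4))
  have hneg : negS ∈ Pw (normOne F q) (t + 1) := by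
    obtain ⟨ω, hω⟩ := IsCyclic.exists_generator (α := normOne F q)
    have hord : orderOf ω = (t + 1) * 2 := by
      rw [← hc]
      exact orderOf_eq_card_of_forall_mem_zpowers hω
    refine ⟨ω, ?_⟩
    rw [powMonoidHom_apply]
    have h3 : ω ^ (t + 1) * ω ^ (t + 1) = 1 := by
      rw [← pow_add, ← two_mul, mul_comm, ← hord, pow_orderOf_eq_one]
    rcases hinv _ h3 with h4 | h4
    · exfalso
      have h6 := orderOf_dvd_of_pow_eq_one h4
      rw [hord] at h6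
      have := Nat.le_of_dvd (by omega) h6
      omega
    · exact h4
  have hsq : ∀ y ∈ Pw (normOne F q) (t + 1), y = 1 ∨ y = negS := by
    rintro _ ⟨z, rfl⟩
    apply hinv
    rw [powMonoidHom_apply, ← pow_add, ← two_mul, mul_comm, ← hc, pow_card_eq_one']
  have hpm : ∀ {d a : F₀ˣ}, d ^ 2 = a ^ n → d = a ^ m ∨ d = - a ^ m := by
    intro d a h
    have h3 : (d : F₀) * d = ((a ^ m : F₀ˣ) : F₀) * ((a ^ m : F₀ˣ) : F₀) := by
      have := congrArg Units.val h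
      rw [hnm, pow_mul', Units.val_pow_eq_pow_val, Units.val_pow_eq_pow_val, pow_two, pow_two] at this
      exact this
    rcases mul_self_eq_mul_self_iff.mp h3 with h4 | h4
    · exact Or.inl (Units.ext h4)
    · exact Or.inr (Units.ext (by rw [h4]; simp))
  have hgcd : Nat.gcd n (q + 1) / 2 = Nat.gcd (t + 1) m := by
    rw [hnm, hq1, Nat.gcd_mul_left, Nat.mul_div_cancel_left _ (by norm_num), Nat.gcd_comm]
  have hA : (t + 1) ∣ Nat.card (normOne F q) := ⟨2, hc⟩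
  rw [hgcd, ← index_Pw_sup (G := normOne F q) (t + 1) m hA]
  obtain ⟨r, hr1, hr2⟩ := exists_refl hB (not_alt_of_sym h2 (by omega) hB)
  have hnegval : ∀ w : normOne F q, ((negS * w : normOne F q) : Fˣ) = -(w : Fˣ) := by
    intro w
    rw [hnegS]
    change (-1 : Fˣ) * (w : Fˣ) = _
    simp
  have hjneg : ∀ x : F₀ˣ, Units.map (j : F₀ →* F) (-x) = -Units.map (j : F₀ →* F) x := by
    intro x
    apply Units.ext
    simp
  apply split_count_gu hF hn1
  · intro u hu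
    obtain ⟨k, a, b, hb1, hb2, hb3⟩ := comm_data hn h32 hj R u hu
    obtain ⟨z, hz⟩ : ∃ z : normOne F q, z = ⟨_, s_mem (hF := hF) b⟩ := ⟨_, rfl⟩
    have hzv : (z : Fˣ) = b * (uM σ₀ b)⁻¹ := by rw [hz]
    rcases hpm (det_sq_of_sim hb2) with h3 | h3
    · have h4 : detS hF hn1 u = z ^ m := by
        apply Subtype.ext
        rw [detS_of hn1 hb1, h3, det_eq_pow hnm hb3, ← hzv]
        rfl
      rw [h4]
      exact Subgroup.mem_sup_right ⟨z, rfl⟩
    · have h4 : detS hF hn1 u = negS * z ^ m := by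
        apply Subtype.ext
        rw [hnegval, detS_of hn1 hb1, h3, hjneg, mul_neg, det_eq_pow hnm hb3, ← hzv]
        rfl
      rw [h4]
      exact Subgroup.mul_mem _ (Subgroup.mem_sup_left hneg) (Subgroup.mem_sup_right ⟨z, rfl⟩)
  · intro w hw
    obtain ⟨y, hy, _, ⟨z, rfl⟩, rfl⟩ := Subgroup.mem_sup.mp hw
    obtain ⟨b, a₁, hb, hz⟩ := exists_of_z (hF := hF) hj z
    obtain ⟨k, hk⟩ := exists_sim h2 hB hm hnm a₁
    have hkr : ∀ x y, fB (B : Matrix (Fin n) (Fin n) F₀) (((k * r : GL (Fin n) F₀) : Matrix (Fin n) (Fin n) F₀) *ᵥ x) (((k * r : GL (Fin n) F₀) : Matrix (Fin n) (Fin n) F₀) *ᵥ y) = a₁ * fB (B : Matrix (Fin n) (Fin n) F₀) x y := by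
      intro x y
      rw [Units.val_mul, ← Matrix.mulVec_mulVec, ← Matrix.mulVec_mulVec, hk, hr1]
    have hdr : gdet (k * r) = - gdet k := by
      rw [map_mul, hr2]
      simp
    obtain ⟨kp, km, hkp, hkm, hdp, hdm⟩ : ∃ kp km : GL (Fin n) F₀,
        (∀ x y, fB (B : Matrix (Fin n) (Fin n) F₀) ((kp : Matrix (Fin n) (Fin n) F₀) *ᵥ x) ((kp : Matrix (Fin n) (Fin n) F₀) *ᵥ y) = a₁ * fB (B : Matrix (Fin n) (Fin n) F₀) x y) ∧
        (∀ x y, fB (B : Matrix (Fin n) (Fin n) F₀) ((km : Matrix (Fin n) (Fin n) F₀) *ᵥ x) ((km : Matrix (Fin n) (Fin n) F₀) *ᵥ y) = a₁ * fB (B : Matrix (Fin n) (Fin n) F₀) x y) ∧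
        gdet kp = a₁ ^ m ∧ gdet km = - a₁ ^ m := by
      rcases hpm (det_sq_of_sim hk) with h3 | h3
      · exact ⟨k, k * r, hk, hkr, h3, by rw [hdr, h3]⟩
      · exact ⟨k * r, k, hkr, hk, by rw [hdr, h3, neg_neg], h3⟩
    rw [powMonoidHom_apply]
    rcases hsq y hy with rfl | rfl
    · obtain ⟨u, hu1, hu2⟩ := comm_exists hj R kp a₁ b hkp hb
      refine ⟨u, hu2, ?_⟩
      apply Subtype.ext
      rw [detS_of hn1 hu1, hdp, det_eq_pow hnm hb, one_mul]
      change _ = (z : Fˣ) ^ m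
      rw [hz]
    · obtain ⟨u, hu1, hu2⟩ := comm_exists hj R km a₁ b hkm hb
      refine ⟨u, hu2, ?_⟩
      apply Subtype.ext
      rw [detS_of hn1 hu1, hdm, hjneg, mul_neg, det_eq_pow hnm hb, hnegval]
      change _ = -((z : Fˣ) ^ m)
      rw [hz]

/-- Odd dimension: every `d` with `d² = aⁿ` is `lⁿ` with `l² = a`. -/
theorem hW_odd (hodd : Odd n) (d a : F₀ˣ) (h : d ^ 2 = a ^ n) : ∃ l : F₀ˣ, l ^ 2 = a ∧ d = l ^ n := by
  obtain ⟨t, rfl⟩ := hodd
  let l : F₀ˣ := d * (a ^ t)⁻¹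
  have hl : l ^ 2 = a := by
    calc l ^ 2 = d ^ 2 * ((a ^ t) ^ 2)⁻¹ := by
          simp only [l]
          rw [mul_pow, inv_pow]
      _ = a ^ (2 * t + 1) * ((a ^ t) ^ 2)⁻¹ := by rw [h]
      _ = a := by
          rw [pow_succ, pow_mul', mul_inv_cancel_comm]
  have h3 : (l ^ (2 * t + 1)) ^ 2 = d ^ 2 := by
    rw [h, ← pow_mul, mul_comm, pow_mul, hl]
  have h4 : (d : F₀) * (d : F₀) = ((l ^ (2 * t + 1) : F₀ˣ) : F₀) * ((l ^ (2 * t + 1) : F₀ˣ) : F₀) := by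
    have := congrArg Units.val h3
    rw [Units.val_pow_eq_pow_val, Units.val_pow_eq_pow_val, pow_two, pow_two] at this
    exact this.symm
  rcases mul_self_eq_mul_self_iff.mp h4 with h5 | h5
  · exact ⟨l, hl, Units.ext h5⟩
  · refine ⟨-l, by rw [neg_pow_two, hl], Units.ext ?_⟩
    rw [Odd.neg_pow ⟨t, rfl⟩, Units.val_neg, h5]

/-- Characteristic two. -/
theorem hW_char2 (h2 : (2 : F₀) = 0) (d a : F₀ˣ) (h : d ^ 2 = a ^ n) : ∃ l : F₀ˣ, l ^ 2 = a ∧ d = l ^ n := by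
  obtain ⟨l, hl⟩ := Cfsg.Agent.Lib.Classical.GraphAut.Char2Iso.exists_unit_rt h2 a
  have hl' : l ^ 2 = a := Units.ext (by rw [Units.val_pow_eq_pow_val, hl])
  refine ⟨l, hl', Units.ext ?_⟩
  apply Cfsg.Agent.Lib.Classical.GraphAut.Char2.sq_inj_two h2
  have h3 := congrArg Units.val h
  rw [← hl', ← pow_mul, mul_comm, pow_mul] at h3
  simpa using h3

end Data

end Cfsg.Agent.Lib.Classical.GraphU.Count
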