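import Mathlib
import Cfsg.Agent.Lib.Classical.GraphU.Count
import Cfsg.Agent.Lib.Classical.GraphAut.Final
import Cfsg.Agent.Lib.Classical.GraphAut.Card

/-!
# Involutory graph automorphisms of `PSU_n`: the classification
-/

set_option autoImplicit false
set_option linter.unusedSectionVars false
set_option linter.unusedSimpArgs false
set_option linter.unusedVariables false
set_option linter.style.haveILetI false

open scoped Matrix MatrixGroups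
open Cfsg
open Cfsg.Agent.Lib.Classical.Herm.Basic Cfsg.Agent.Lib.Classical.Herm.GU Cfsg.Agent.Lib.Classical.Herm.SU
open Cfsg.Agent.Lib.Classical.Herm.Psi Cfsg.Agent.Lib.Classical.Herm.AutMain
open Cfsg.Agent.Lib.Classical.Herm.AutStruct Cfsg.Agent.Lib.Classical.Herm.Descent
open Cfsg.Agent.Lib.Classical.Herm.GLDescent Cfsg.Agent.Lib.Classical.Herm.PSLGraphField
open Cfsg.Agent.Lib.Linalg.AutPSLStd Cfsg.Agent.Lib.Classical.GraphAut.Basic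
open Cfsg.Agent.Lib.Classical.GraphAut.Forms Cfsg.Agent.Lib.Classical.GraphAut.Models
open Cfsg.Agent.Lib.Classical.GraphAut.Split Cfsg.Agent.Lib.Classical.GraphAut.Disc
open Cfsg.Agent.Lib.Classical.GraphAut.Char2 Cfsg.Agent.Lib.Classical.GraphAut.Char2Iso
open Cfsg.Agent.Lib.Classical.GraphAut.Char2Main Cfsg.Agent.Lib.Classical.GraphAut.Final
open Cfsg.Agent.Lib.Classical.GraphAut.Card
open Cfsg.Agent.Lib.Linalg.OrthModels Cfsg.Agent.Lib.Classical.Witt.Index Cfsg.Agent.Lib.Classical.Witt.Hyp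
open Cfsg.Agent.Lib.Classical.Witt.Disc
open Cfsg.Agent.Lib.Classical.GraphU.Basic Cfsg.Agent.Lib.Classical.GraphU.Cent
open Cfsg.Agent.Lib.Classical.GraphU.Count
open Cfsg.Agent.Lib.Classical.Symp.Basic
open Module QuadraticMap

namespace Cfsg.Agent.Lib.Classical.GraphU.Main

variable {F : Type*} [Field F] [Fintype F] {q n : ℕ}
variable {F₀ : Type*} [Field F₀] [Fintype F₀]


section Setup

variable {hF : Fintype.card F = q ^ 2} {j : F₀ →+* F}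

local notation "σ₀" => sigE hF

/-- Involutory graph automorphisms and forms. -/
theorem inv_data (h32 : ¬ (n = 3 ∧ q = 2)) (hj : JD hF j) {γ : MulAut (PSU n F q)} (hγ : IsGraphAutClassPSU γ) (hγ2 : orderOf γ = 2) :
    3 ≤ n ∧ ∃ (g : GU n F q) (P : GL (Fin n) F) (c η : Fˣ) (B : GL (Fin n) F₀), γ = deltaOf g * phiOf σ₀ ∧ Rep hF j g P c η B ∧
      (IsAl B ∨ (IsSy B ∧ ¬ IsAl B)) := by
  obtain ⟨hn, g, rfl, hg⟩ := graph_data hF h32 hγ hγ2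
  refine ⟨hn, ?_⟩
  obtain ⟨P, c, η, B, R, hcase⟩ := exists_rep_of_g hn h32 hj g hg
  exact ⟨g, P, c, η, B, rfl, R, hcase⟩

theorem exists_rep_sym (hj : JD hF j) {B : GL (Fin n) F₀} (hB : IsSy B) :
    ∃ (g : GU n F q) (P : GL (Fin n) F) (c η : Fˣ), Rep hF j g P c η B := by
  apply exists_rep_of_B hj B 1 (mul_one 1)
  rw [one_smul]
  apply Units.ext
  apply fB_ext
  intro x y
  rw [coe_tG, fB_transpose, hB y x]

theorem exists_rep_alt (hj : JD hF j) {B : GL (Fin n) F₀} (hB : IsAl B) :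
    ∃ (g : GU n F q) (P : GL (Fin n) F) (c η : Fˣ), Rep hF j g P c η B := by
  apply exists_rep_of_B hj B (-1) (by simp)
  apply Units.ext
  apply fB_ext
  intro x y
  rw [coe_tG, fB_transpose, coe_smulG, fB_smul_mat, skew_of_alt hB y x]
  simp

end Setup

theorem two_ne_of_odd (hF₀ : Fintype.card F₀ = q) (hodd : Odd q) : (2 : F₀) ≠ 0 := by
  intro h
  obtain ⟨k, hk⟩ := hodd
  have h3 : ringChar F₀ = 2 := by
    haveI : CharP F₀ 2 := CharTwo.of_one_ne_zero_of_two_eq_zero one_ne_zero h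
    exact ringChar.eq F₀ 2
  rw [FiniteField.even_card_iff_char_two, hF₀] at h3
  omega

theorem two_eq_of_not_odd (hF₀ : Fintype.card F₀ = q) (hodd : ¬ Odd q) : (2 : F₀) = 0 := by
  have h3 : ringChar F₀ = 2 := by
    rw [FiniteField.even_card_iff_char_two, hF₀]
    exact Nat.even_iff.mp (Nat.not_odd_iff_even.mp hodd)
  have := ringChar.Nat.cast_ringChar (R := F₀)
  rwa [h3] at this

/-- The centraliser, odd dimension, characteristic two. -/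
theorem cent_odd_char2_U {hF : Fintype.card F = q ^ 2} {j : F₀ →+* F} {g : GU n F q} {P : GL (Fin n) F} {c η : Fˣ} {B : GL (Fin n) F₀} {m : ℕ}
    (hn : 3 ≤ n) (h32 : ¬ (n = 3 ∧ q = 2)) (hj : JD hF j) (R : Rep hF j g P c η B)
    (h2 : (2 : F₀) = 0) (hS : IsSy B) (hA : ¬ IsAl B) (hnm : n = 2 * m + 1) :
    Nonempty (↥(inndiagPSU n F q ⊓ Subgroup.centralizer {(deltaOf g * phiOf (sigE hF) : MulAut (PSU n F q))}) ≃* PGO F₀ (quadFormOdd m F₀)) := by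
  obtain ⟨Q, hQ⟩ := canon_odd h2 hS hA hnm
  obtain ⟨e₁⟩ := cent_iso_bil hn h32 hj R Q (f₀ m F₀) 1 (fun x y => by
    rw [hQ]
    simp only [Units.val_one, one_mul])
  obtain ⟨e₂⟩ := proj_sim_bil h2 (f₀ m F₀) f₀_hom ⟨e₀ m F₀, e₀ m F₀, by
    rw [f₀_self]
    simp⟩
  obtain ⟨e₃⟩ := f0_equiv (m := m) (F := F₀) h2
  obtain ⟨e₄⟩ := Q0_equiv (m := m) (F := F₀) h2
  obtain ⟨e₅⟩ := proj_sim_quad h2 (quadFormOdd m F₀) odd_hom ⟨e₀ m F₀, by
    rw [odd_eq, inrP_e₀]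
    simp [quadFormPlus]⟩
  exact ⟨e₁.trans (e₂.trans (e₃.trans (e₄.symm.trans e₅.symm)))⟩

/-- **Odd dimension.** -/
theorem odd_main_U (hF : Fintype.card F = q ^ 2) (hF₀ : Fintype.card F₀ = q) (hn : 3 ≤ n) (h32 : ¬ (n = 3 ∧ q = 2)) {m : ℕ} (hnm : n = 2 * m + 1)
    (γ γ' : MulAut (PSU n F q)) (hγ : IsGraphAutClassPSU γ) (hγ2 : orderOf γ = 2)
    (hγ' : IsGraphAutClassPSU γ') (hγ'2 : orderOf γ' = 2) :
    Nonempty (↥(inndiagPSU n F q ⊓ Subgroup.centralizer {γ}) ≃* PGO F₀ (quadFormOdd m F₀)) ∧ IsConjUnder (inndiagPSU n F q) γ γ' := by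
  obtain ⟨j, hj⟩ := exists_JD hF hF₀
  have hnot : ∀ B : GL (Fin n) F₀, ¬ IsAl B := by
    intro B hA
    obtain ⟨t, ht⟩ := even_of_alt hA
    omega
  obtain ⟨-, g, P, c, η, B, rfl, R, hB⟩ := inv_data h32 hj hγ hγ2
  obtain ⟨-, g', P', c', η', B', rfl, R', hB'⟩ := inv_data h32 hj hγ' hγ'2
  obtain ⟨hS, hA⟩ := hB.resolve_left (hnot B)
  obtain ⟨hS', hA'⟩ := hB'.resolve_left (hnot B')
  by_cases h2 : (2 : F₀) = 0
  · refine ⟨cent_odd_char2_U hn h32 hj R h2 hS hA hnm, ?_⟩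
    obtain ⟨Q, hQ⟩ := canon_odd h2 hS hA hnm
    obtain ⟨Q', hQ'⟩ := canon_odd h2 hS' hA' hnm
    exact conj_of_model hn h32 hj R R' (f₀ m F₀) Q Q' 1 1 (fun x y => by
      rw [hQ]
      simp only [Units.val_one, one_mul]) (fun x y => by
      rw [hQ']
      simp only [Units.val_one, one_mul])
  · obtain ⟨Q, a, hQ⟩ := model_odd h2 hS hnm
    obtain ⟨Q', a', hQ'⟩ := model_odd h2 hS' hnm
    exact ⟨cent_iso_quad hn h32 hj R h2 hS Q _ a hQ, conj_of_quad hn h32 hj R R' h2 hS hS' _ Q Q' a a' hQ hQ'⟩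

/-- Three classes. -/
theorem classes_main_U (hF : Fintype.card F = q ^ 2) (hF₀ : Fintype.card F₀ = q) (hodd : Odd q) {m : ℕ} (hm : 2 ≤ m) (hnm : n = 2 * m) :
    ∃ (γ₁ γ₂ γ₃ : MulAut (PSU n F q)) (a b : F₀), (∀ z₁ z₂ : F₀, z₁ ^ 2 + a * z₁ * z₂ + b * z₂ ^ 2 = 0 → z₁ = 0 ∧ z₂ = 0) ∧ IsGraphAutClassPSU γ₁ ∧ orderOf γ₁ = 2 ∧ IsGraphAutClassPSU γ₂ ∧ orderOf γ₂ = 2 ∧ IsGraphAutClassPSU γ₃ ∧ orderOf γ₃ = 2 ∧ ¬ IsConjUnder (inndiagPSU n F q) γ₁ γ₂ ∧ ¬ IsConjUnder (inndiagPSU n F q) γ₁ γ₃ ∧ ¬ IsConjUnder (inndiagPSU n F q) γ₂ γ₃ ∧ (∀ γ : MulAut (PSU n F q), IsGraphAutClassPSU γ → orderOf γ = 2 → IsConjUnder (inndiagPSU n F q) γ₁ γ ∨ IsConjUnder (inndiagPSU n F q) γ₂ γ ∨ IsConjUnder (inndiagPSU n F q) γ₃ γ) ∧ Nonempty (↥(inndiagPSU n F q ⊓ Subgroup.centralizer {γ₁}) ≃* PGSp m F₀) ∧ Nonempty (↥(inndiagPSU n F q ⊓ Subgroup.centralizer {γ₂}) ≃* PGO F₀ (quadFormPlus m F₀)) ∧ Nonempty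 (↥(inndiagPSU n F q ⊓ Subgroup.centralizer {γ₃}) ≃* PGO F₀ (quadFormMinus (m - 1) F₀ a b)) := by
  classical
  obtain ⟨j, hj⟩ := exists_JD hF hF₀
  have h2 := two_ne_of_odd hF₀ hodd
  have hn3 : 3 ≤ n := by omega
  have h32 : ¬ (n = 3 ∧ q = 2) := by omega
  obtain ⟨B₁, P₁, hB₁, hP₁⟩ := exists_alt_rep (F := F₀) hnm
  obtain ⟨B₂, hB₂, hP₂⟩ := exists_B_of_quad h2 (plusQ m F₀) (polarNondeg_plusQ m) (stdE m F₀ hnm)
  obtain ⟨ζ, hζ⟩ := exists_no_root (F := F₀)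
  have hab := anisotropic_of_no_root hζ
  let E : (Fin n → F₀) ≃ₗ[F₀] ((Fin (m - 1) ⊕ Fin (m - 1)) ⊕ Fin 2 → F₀) := LinearEquiv.ofFinrankEq _ _ (by simp; omega)
  obtain ⟨B₃, hB₃, hP₃⟩ := exists_B_of_quad h2 (minusQ (m - 1) F₀ 1 ζ) (polarNondeg_minusQ (m - 1) hab) E
  have hA₂ := not_alt_of_sym h2 (by omega) hB₂
  have hA₃ := not_alt_of_sym h2 (by omega) hB₃
  obtain ⟨g₁, T₁, c₁, η₁, R₁⟩ := exists_rep_alt (hF := hF) hj hB₁
  obtain ⟨g₂, T₂, c₂, η₂, R₂⟩ := exists_rep_sym (hF := hF) hj hB₂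
  obtain ⟨g₃, T₃, c₃, η₃, R₃⟩ := exists_rep_sym (hF := hF) hj hB₃
  refine ⟨deltaOf g₁ * phiOf (sigE hF), deltaOf g₂ * phiOf (sigE hF), deltaOf g₃ * phiOf (sigE hF), 1, ζ, hab, isGraph_of hn3 _, orderOf_of_rep hn3 R₁, isGraph_of hn3 _, orderOf_of_rep hn3 R₂,
    isGraph_of hn3 _, orderOf_of_rep hn3 R₃, not_conj_alt hn3 h32 hj R₁ R₂ hB₁ hA₂, not_conj_alt hn3 h32 hj R₁ R₃ hB₁ hA₃,
    not_conj_plus_minus hn3 h32 hj R₂ R₃ (by omega) hζ (stdE m F₀ hnm) E hP₂ hP₃, ?_,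
    cent_iso_bil hn3 h32 hj R₁ P₁ (sympForm m F₀) 1 (fun x y => by rw [hP₁, Units.val_one, one_mul]),
    cent_iso_quad hn3 h32 hj R₂ h2 hB₂ (stdE m F₀ hnm) _ 1 (fun x => by rw [← hP₂, Units.val_one, one_mul]; rfl),
    cent_iso_quad hn3 h32 hj R₃ h2 hB₃ E _ 1 (fun x => by rw [← hP₃, Units.val_one, one_mul]; rfl)⟩
  intro γ hγ hγ2
  obtain ⟨-, g, T, c, η, B, rfl, R, hcase⟩ := inv_data h32 hj hγ hγ2
  rcases hcase with hA | ⟨hS, hA⟩
  · left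
    obtain ⟨P, hP⟩ := alt_model hA hnm
    exact conj_of_model hn3 h32 hj R₁ R (sympForm m F₀) P₁ P 1 1 (fun x y => by rw [hP₁, Units.val_one, one_mul])
      (fun x y => by rw [hP, Units.val_one, one_mul])
  · right
    rcases model_even h2 hS (by omega) hnm with ⟨P, hP⟩ | ⟨ζ', hζ', P, hP⟩
    · left
      exact conj_of_quad hn3 h32 hj R₂ R h2 hB₂ hS (quadFormPlus m F₀) (stdE m F₀ hnm) P 1 1
        (fun x => by rw [← hP₂, Units.val_one, one_mul]; rfl) (fun x => by rw [hP, Units.val_one, one_mul])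
    · right
      obtain ⟨R', hR'⟩ := minus_iso h2 (m - 1) hζ hζ'
      exact conj_of_quad hn3 h32 hj R₃ R h2 hB₃ hS (quadFormMinus (m - 1) F₀ 1 ζ) E (P.trans R') 1 1
        (fun x => by rw [← hP₃, Units.val_one, one_mul]; rfl)
        (fun x => by rw [LinearEquiv.trans_apply, hR', hP, Units.val_one, one_mul])

/-- **Even dimension, characteristic two.** -/
theorem even_main_U (hF : Fintype.card F = q ^ 2) (hF₀ : Fintype.card F₀ = q) (h2F : (2 : F) = 0) {m : ℕ} (hm : 2 ≤ m) (hnm : n = 2 * m) :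
    ∃ (γ₁ γ₃ : MulAut (PSU n F q)) (t : ↥(Matrix.symplecticGroup (Fin m) F₀)), IsTransvection (t : Matrix (Fin m ⊕ Fin m) (Fin m ⊕ Fin m) F₀) ∧ IsGraphAutClassPSU γ₁ ∧ orderOf γ₁ = 2 ∧ IsGraphAutClassPSU γ₃ ∧ orderOf γ₃ = 2 ∧ ¬ IsConjUnder (inndiagPSU n F q) γ₁ γ₃ ∧ (∀ γ : MulAut (PSU n F q), IsGraphAutClassPSU γ → orderOf γ = 2 → IsConjUnder (inndiagPSU n F q) γ₁ γ ∨ IsConjUnder (inndiagPSU n F q) γ₃ γ) ∧ Nonempty (↥(inndiagPSU n F q ⊓ Subgroup.centralizer {γ₁}) ≃* ↥(Matrix.symplecticGroup (Fin m) F₀)) ∧ Nonempty (↥(inndiagPSU n F q ⊓ Subgroup.centralizer {γ₃}) ≃* ↥(Subgroup.centralizer ({t} : Set ↥(Matrix.symplecticGroup (Fin m) F₀)))) := by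
  classical
  obtain ⟨j, hj⟩ := exists_JD hF hF₀
  have h2 : (2 : F₀) = 0 := by
    apply j.injective
    rw [map_ofNat, map_zero, h2F]
  haveI : CharP F₀ 2 := CharTwo.of_one_ne_zero_of_two_eq_zero one_ne_zero h2
  have hn3 : 3 ≤ n := by omega
  have h32 : ¬ (n = 3 ∧ q = 2) := by omega
  let i₀ : Fin m := ⟨0, by omega⟩
  let w₀ : (Fin m ⊕ Fin m) → F₀ := Pi.single (.inl i₀) 1
  have hw₀ : w₀ ≠ 0 := by
    intro h
    have := congrFun h (.inl i₀)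
    simp [w₀] at this
  obtain ⟨u₀, hu₀⟩ : ∃ u, sympForm m F₀ w₀ u ≠ 0 := by
    by_contra hcon
    push Not at hcon
    exact hw₀ (sympForm_eq_zero_right hcon)
  obtain ⟨B₁, P₁, hB₁, hP₁⟩ := exists_alt_rep (F := F₀) hnm
  obtain ⟨B₃, hB₃⟩ := exists_B_of_bilin (n := n) (f₁B w₀) (f₁B_nondeg h2 w₀) (stdE m F₀ hnm)
  have hP₃ : ∀ x y, f₁ m F₀ w₀ (stdE m F₀ hnm x) (stdE m F₀ hnm y) = fB (B₃ : Matrix (Fin n) (Fin n) F₀) x y := by
    intro x y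
    rw [hB₃, f₁B_apply]
  have hS₃ : IsSy B₃ := by
    intro x y
    rw [← hP₃, ← hP₃, f₁, f₁, sympForm_comm h2 (stdE m F₀ hnm x) (stdE m F₀ hnm y), mul_comm]
  have hA₃ : ¬ IsAl B₃ := by
    intro hA
    apply hu₀
    have h3 := hA ((stdE m F₀ hnm).symm u₀)
    rw [← hP₃, LinearEquiv.apply_symm_apply, f₁_self h2] at h3
    exact (pow_eq_zero_iff two_ne_zero).mp h3
  have hJne : ∃ u v, sympForm m F₀ u v ≠ 0 := ⟨w₀, u₀, hu₀⟩
  have hf₁ne : ∃ u v, f₁ m F₀ w₀ u v ≠ 0 := ⟨u₀, u₀, by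
    rw [f₁_self h2]
    exact pow_ne_zero _ hu₀⟩
  obtain ⟨g₁, T₁, c₁, η₁, R₁⟩ := exists_rep_alt (hF := hF) hj hB₁
  obtain ⟨g₃, T₃, c₃, η₃, R₃⟩ := exists_rep_sym (hF := hF) hj hS₃
  refine ⟨deltaOf g₁ * phiOf (sigE hF), deltaOf g₃ * phiOf (sigE hF), tT w₀, tT_isTransvection hw₀, isGraph_of hn3 _, orderOf_of_rep hn3 R₁, isGraph_of hn3 _,
    orderOf_of_rep hn3 R₃, not_conj_alt hn3 h32 hj R₁ R₃ hB₁ hA₃, ?_, ?_, ?_⟩
  · intro γ hγ hγ2
    obtain ⟨-, g, T, c, η, B, rfl, R, hcase⟩ := inv_data h32 hj hγ hγ2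
    rcases hcase with hA | ⟨hS, hA⟩
    · left
      obtain ⟨P, hP⟩ := alt_model hA hnm
      exact conj_of_model hn3 h32 hj R₁ R (sympForm m F₀) P₁ P 1 1 (fun x y => by
        rw [hP₁]
        simp only [Units.val_one, one_mul]) (fun x y => by
        rw [hP]
        simp only [Units.val_one, one_mul])
    · right
      obtain ⟨P, hP⟩ := canon_even h2 hS hA hnm w₀ hw₀
      exact conj_of_model hn3 h32 hj R₃ R (f₁ m F₀ w₀) (stdE m F₀ hnm) P 1 1 (fun x y => by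
        rw [hP₃]
        simp only [Units.val_one, one_mul]) (fun x y => by
        rw [hP]
        simp only [Units.val_one, one_mul])
  · obtain ⟨e₁⟩ := cent_iso_bil hn3 h32 hj R₁ P₁ (sympForm m F₀) 1 (fun x y => by
      rw [hP₁]
      simp only [Units.val_one, one_mul])
    obtain ⟨e₂⟩ := proj_sim_bil h2 (sympForm m F₀) sympForm_smul_both hJne
    obtain ⟨e₃⟩ := J_equiv (m := m) (F := F₀)
    exact ⟨e₁.trans (e₂.trans e₃)⟩
  · obtain ⟨e₁⟩ := cent_iso_bil hn3 h32 hj R₃ (stdE m F₀ hnm) (f₁ m F₀ w₀) 1 (fun x y => by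
      rw [hP₃]
      simp only [Units.val_one, one_mul])
    obtain ⟨e₂⟩ := proj_sim_bil h2 (f₁ m F₀ w₀) (f₁_hom w₀) hf₁ne
    obtain ⟨e₃⟩ := f1_equiv (m := m) (F := F₀) h2 hw₀
    exact ⟨e₁.trans (e₂.trans e₃)⟩

/-- The centraliser is not `PGSp` for symmetric forms. -/
theorem not_iso_PGSp_U {hF : Fintype.card F = q ^ 2} {j : F₀ →+* F} {g : GU n F q} {P : GL (Fin n) F} {c η : Fˣ} {B : GL (Fin n) F₀} {m : ℕ}
    (hn : 3 ≤ n) (h32 : ¬ (n = 3 ∧ q = 2)) (hj : JD hF j) (R : Rep hF j g P c η B)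
    (h2 : (2 : F₀) ≠ 0) (hB : IsSy B) (hm : 2 ≤ m) (hnm : n = 2 * m) :
    ¬ Nonempty (↥(inndiagPSU n F q ⊓ Subgroup.centralizer {(deltaOf g * phiOf (sigE hF) : MulAut (PSU n F q))}) ≃* PGSp m F₀) := by
  classical
  rintro ⟨e⟩
  haveI : Nonempty (Fin m) := ⟨⟨0, by omega⟩⟩
  rcases model_even h2 hB (by omega) hnm with ⟨Q, hQ⟩ | ⟨ζ, hζ, Q, hQ⟩
  · obtain ⟨e₁⟩ := cent_iso_quad hn h32 hj R h2 hB Q (⇑(plusQ m F₀)) 1 (fun x => by
      rw [plusQ_apply, hQ]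
      simp only [Units.val_one, one_mul])
    exact not_iso_of_card h2 hm (plusQ m F₀) (polarNondeg_plusQ m) rfl (Or.inl rfl)
      (Cfsg.Agent.S0287.result rfl m (by omega)) ⟨e₁.symm.trans e⟩
  · have hab := anisotropic_of_no_root hζ
    obtain ⟨e₁⟩ := cent_iso_quad hn h32 hj R h2 hB Q (⇑(minusQ (m - 1) F₀ 1 ζ)) 1 (fun x => by
      rw [minusQ_apply, hQ]
      simp only [Units.val_one, one_mul])
    exact not_iso_of_card h2 hm (minusQ (m - 1) F₀ 1 ζ) (polarNondeg_minusQ (m - 1) hab) rfl (Or.inr rfl)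
      (Cfsg.Agent.S0288.result rfl m (by omega) 1 ζ hab) ⟨e₁.symm.trans e⟩

/-- **The number of `PSU`-classes.** -/
theorem split_main_U (hF : Fintype.card F = q ^ 2) (hF₀ : Fintype.card F₀ = q) (hn : 3 ≤ n) (h32 : ¬ (n = 3 ∧ q = 2)) (γ : MulAut (PSU n F q)) (hγ : IsGraphAutClassPSU γ) (hγ2 : orderOf γ = 2) :
    ((Even n ∧ Odd q ∧ Nonempty (↥(inndiagPSU n F q ⊓ Subgroup.centralizer {γ}) ≃* PGSp (n / 2) F₀)) → splitClassCount (inndiagPSU n F q) (Inn (PSU n F q)) γ = Nat.gcd (n / 2) (q + 1)) ∧ ((Even n ∧ Odd q ∧ ¬ Nonempty (↥(inndiagPSU n F q ⊓ Subgroup.centralizer {γ}) ≃* PGSp (n / 2) F₀)) → splitClassCount (inndiagPSU n F q) (Inn (PSU n F q)) γ = Nat.gcd n (q + 1) / 2) ∧ (¬ (Even n ∧ Odd q) → splitClassCount (inndiagPSU n F q) (Inn (PSU n F q)) γ = Nat.gcd n (q + 1)) := by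
  classical
  obtain ⟨j, hj⟩ := exists_JD hF hF₀
  obtain ⟨-, g, P, c, η, B, rfl, R, hcase⟩ := inv_data h32 hj hγ hγ2
  have hmm : Even n → n = 2 * (n / 2) := by
    rintro ⟨t, ht⟩
    omega
  refine ⟨?_, ?_, ?_⟩
  · rintro ⟨he, hp, hiso⟩
    rcases hcase with hA | ⟨hS, -⟩
    · exact count_alt_U hn h32 hj R hA (hmm he)
    · exact absurd hiso (not_iso_PGSp_U hn h32 hj R (two_ne_of_odd hF₀ hp) hS (by have := hmm he; omega) (hmm he))
  · rintro ⟨he, hp, hiso⟩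
    rcases hcase with hA | ⟨hS, -⟩
    · exfalso
      apply hiso
      obtain ⟨Q, hQ⟩ := alt_model hA (hmm he)
      exact cent_iso_bil hn h32 hj R Q (sympForm (n / 2) F₀) 1 (fun x y => by
        rw [hQ]
        simp only [Units.val_one, one_mul])
    · exact count_sym_U hn h32 hj R hp (two_ne_of_odd hF₀ hp) hS (by have := hmm he; omega) (hmm he)
  · intro h
    by_cases he : Even n
    · have hp : ¬ Odd q := fun hp => h ⟨he, hp⟩
      exact count_uniform_U hn h32 hj R (hW_char2 (two_eq_of_not_odd hF₀ hp))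
    · exact count_uniform_U hn h32 hj R (hW_odd (Nat.not_even_iff_odd.mp he))

/-- The standard automorphism, `n` divisible by four. -/
theorem it_main_U (hF : Fintype.card F = q ^ 2) (hF₀ : Fintype.card F₀ = q) (hodd : Odd q) {m : ℕ} (hm : 2 ≤ m) (hnm : n = 2 * m) (h4 : 4 ∣ n)
    (σ : F ≃+* F) (hσ : ∀ a : F, σ a = a ^ q) (φ : MulAut (PSU n F q)) (hφ : IsFieldAutPSUOf σ φ) :
    Nonempty (↥(inndiagPSU n F q ⊓ Subgroup.centralizer {φ}) ≃* PGO F₀ (quadFormPlus m F₀)) := by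
  classical
  obtain ⟨j, hj⟩ := exists_JD hF hF₀
  have h2 := two_ne_of_odd hF₀ hodd
  have hn3 : 3 ≤ n := by omega
  have h32 : ¬ (n = 3 ∧ q = 2) := by omega
  have hσ' : σ = sigE hF := by
    ext x
    rw [hσ, sigE_apply]
  subst hσ'
  have hφ' := isFieldAut_iff _ φ hφ
  subst hφ'
  have hme : Even m := by
    obtain ⟨t, ht⟩ := h4
    exact ⟨t, by omega⟩
  have R : Rep hF j (1 : GU n F q) 1 1 1 (1 : GL (Fin n) F₀) := by
    refine ⟨?_, ?_⟩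
    · change (1 : GL (Fin n) F) * mapG (sigE hF) 1 = _
      rw [mapG_one, one_mul, one_smul]
    · rw [map_one, one_smul, mapG_one, tG_one, one_mul]
  have hB : IsSy (1 : GL (Fin n) F₀) := isSy_one
  have e1 : (phiOf (sigE hF) : MulAut (PSU n F q)) = deltaOf (1 : GU n F q) * phiOf (sigE hF) := by
    rw [deltaOf_one, one_mul]
  rw [e1]
  have hdet : IsSquare ((1 : GL (Fin n) F₀) : Matrix (Fin n) (Fin n) F₀).det := by
    rw [Units.val_one, Matrix.det_one]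
    exact IsSquare.one
  rcases model_even h2 hB (by omega : 1 ≤ m) hnm with ⟨Q, hQ⟩ | ⟨ζ, hζ, Q, hQ⟩
  · exact cent_iso_quad hn3 h32 hj R h2 hB Q _ 1 (fun x => by
      rw [hQ]
      simp only [Units.val_one, one_mul])
  · exfalso
    have h3 := (disc_minus hB h2 (by omega) hnm hζ Q hQ).mp hdet
    apply h3
    rw [hme.neg_one_pow]
    exact IsSquare.one

end Cfsg.Agent.Lib.Classical.GraphU.Main
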